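import Cfsg.Agent.H11.Suz.Core

/-! Kernel checks for the recognition of the Suzuki group. -/

set_option autoImplicit false
set_option maxRecDepth 100000

open Cfsg.Agent.H16 Cfsg.Agent.H36

namespace Cfsg.Agent.H11.Suz

theorem levelsA_ok : levelsOk 416 Data.aTab Data.lvA 0 = true := by decide +kernel

theorem levelsB_ok : levelsOk 100 Data.bTab Data.lvB 0 = true := by decide +kernel

theorem b0 : allFrom (bOk) 100 0 = true := by decide +kernel

theorem b_ok : ∀ i, i < 100 → (bOk) i = true :=
  (allFrom_extend allFrom_nil b0)

theorem bOnto0 : allFrom (bOnto) 416 0 = true := by decide +kernel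

theorem bOnto_ok : ∀ i, i < 416 → (bOnto) i = true :=
  (allFrom_extend allFrom_nil bOnto0)

theorem p0_ok : p0Ok = true := by decide +kernel

theorem piPar0 : allFrom (piParOk) 700 0 = true := by decide +kernel

theorem piPar1 : allFrom (piParOk) 700 700 = true := by decide +kernel

theorem piPar2 : allFrom (piParOk) 616 1400 = true := by decide +kernel

theorem piPar_ok : ∀ i, i < 2016 → (piParOk) i = true :=
  (allFrom_extend (allFrom_extend (allFrom_extend allFrom_nil piPar0) piPar1) piPar2)

end Cfsg.Agent.H11.Suz
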