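import Cfsg.Agent.H11.Suz.Loc
import Cfsg.Agent.H11.Suz.Checks5

/-!
The automorphisms of the graph on the 416 points normalise the stabiliser.
-/

set_option autoImplicit false

open Equiv Cfsg.Agent.H16 Cfsg.Agent.H36

namespace Cfsg.Agent.H11.Suz

open Data

theorem lvA_prod : (lvA.map fun p => p.2.1).prod = 2 * 251596800 := by decide +kernel

theorem autA_card : Nat.card (autOf 416 aTab) ≤ 2 * 251596800 := by
  have h := (levels_sound (n := 416) (T := aTab) lvA 0 levelsA_ok (fun i _ => by simp [tb_eq])).1
  rw [lvA_prod] at h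
  have e : fixOf 416 aTab 0 = autOf 416 aTab :=
    le_antisymm (fun _ hg => hg.1) fun g hg => ⟨hg, fun x hx => absurd hx (by simp [tb_eq])⟩
  rwa [e] at h

/-- An automorphism of the graph on the 416 points normalises the stabiliser. -/
theorem normalises {σ : Perm (Fin 416)} (hσ : σ ∈ autOf 416 aTab) (g : X) :
    ∃ g' : X, rA g' = σ * rA g * σ⁻¹ := by
  set R := rA.range.subgroupOf (autOf 416 aTab) with hR
  have hle : rA.range ≤ autOf 416 aTab := by
    rintro _ ⟨g, rfl⟩; exact rA_aut g
  have hcard : Nat.card R = 251596800 := by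
    rw [hR, Nat.card_congr (Subgroup.subgroupOfEquivOfLe hle).toEquiv,
      ← Nat.card_congr (MonoidHom.ofInjective rA_inj).toEquiv, card_X]
  have hidx : R.index ≤ 2 := by
    have h := R.card_mul_index
    have := autA_card
    rw [hcard] at h
    omega
  haveI : R.Normal := by
    rcases Nat.lt_or_ge R.index 2 with h | h
    · have h0 : R.index ≠ 0 := Subgroup.index_ne_zero_of_finite
      rw [Subgroup.index_eq_one.1 (show R.index = 1 by omega)]
      infer_instance
    · exact Subgroup.normal_of_index_eq_two (by omega)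
  have := ‹R.Normal›.conj_mem ⟨rA g, rA_aut g⟩ (show rA g ∈ rA.range from ⟨g, rfl⟩) ⟨σ, hσ⟩
  exact this

end Cfsg.Agent.H11.Suz
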