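import Cfsg.Agent.H11.Suz.Core

/-! Kernel checks for the recognition of the Suzuki group. -/

set_option autoImplicit false
set_option maxRecDepth 100000

open Cfsg.Agent.H16 Cfsg.Agent.H36

namespace Cfsg.Agent.H11.Suz

theorem mergeA0 : allFrom (mergeOk Data.mergeA [0, 10] Data.hsL apA 416) 416 0 = true := by decide +kernel

theorem mergeA_ok : ∀ i, i < 416 → (mergeOk Data.mergeA [0, 10] Data.hsL apA 416) i = true :=
  (allFrom_extend allFrom_nil mergeA0)

theorem mergeC0 : allFrom (mergeOk Data.mergeC [0, 28, 389, 1364] Data.hsL apC 1365) 1365 0 = true := by decide +kernel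

theorem mergeC_ok : ∀ i, i < 1365 → (mergeOk Data.mergeC [0, 28, 389, 1364] Data.hsL apC 1365) i = true :=
  (allFrom_extend allFrom_nil mergeC0)

theorem mergeL0 : allFrom (mergeOk Data.mergeL [0, 10] Data.gensL apA 416) 416 0 = true := by decide +kernel

theorem mergeL_ok : ∀ i, i < 416 → (mergeOk Data.mergeL [0, 10] Data.gensL apA 416) i = true :=
  (allFrom_extend allFrom_nil mergeL0)

theorem merge50 : allFrom (mergeOk Data.merge5 [0, 1, 38] [0, 1, 2, 3, 4] apA 416) 416 0 = true := by decide +kernel

theorem merge5_ok : ∀ i, i < 416 → (mergeOk Data.merge5 [0, 1, 38] [0, 1, 2, 3, 4] apA 416) i = true :=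
  (allFrom_extend allFrom_nil merge50)

theorem pc0 : allFrom (pcOk) 12 0 = true := by decide +kernel

theorem pc_ok : ∀ i, i < 12 → (pcOk) i = true :=
  (allFrom_extend allFrom_nil pc0)

theorem blocks_ok : (Data.blocks.all blockOk) = true := by decide +kernel

theorem line0 : allFrom (lineOk) 700 0 = true := by decide +kernel

theorem line1 : allFrom (lineOk) 665 700 = true := by decide +kernel

theorem line_ok : ∀ i, i < 1365 → (lineOk) i = true :=
  (allFrom_extend (allFrom_extend allFrom_nil line0) line1)

theorem gensL_ok : (Data.gensL.all lineFix) = true := by decide +kernel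

theorem hs_ok : (Data.hsL.all fun k => Nat.blt k D.ns && Nat.beq (apC k Data.c0) Data.c0) = true := by decide +kernel

end Cfsg.Agent.H11.Suz
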