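import Cfsg.Agent.H11.Suz.Core

/-! Kernel checks of the shapes of the classes. -/

set_option autoImplicit false
set_option maxRecDepth 100000

open Cfsg.Agent.H16 Cfsg.Agent.H36

namespace Cfsg.Agent.H11.Suz

/-- The label of a point. -/
noncomputable def lab (T : PArr) (x : ℕ) : ℕ := bitField (T.get 28 x) 0 3

/-- The size of a class. -/
noncomputable def labCnt (T : PArr) (n l : ℕ) : ℕ := countFrom (fun x => Nat.beq (lab T x) l) n 0

theorem cntA_ok : [0, 1].map (labCnt Data.mergeA 416) = [96, 320] := by decide +kernel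

theorem cntL_ok : [0, 1].map (labCnt Data.mergeL 416) = [160, 256] := by decide +kernel

theorem cntC_ok : [0, 1, 2, 3].map (labCnt Data.mergeC 1365) = [1024, 320, 20, 1] := by decide +kernel

theorem cnt5_ok : [0, 1, 2].map (labCnt Data.merge5 416) = [1, 315, 100] := by decide +kernel

theorem shape0 : allFrom (fun a =>
    Bool.rec (!(Nat.beq (lab Data.mergeA a) 0)) (Nat.beq (lab Data.mergeA a) 0) (inS Data.c0 a) &&
    Bool.rec (!(Nat.beq (lab Data.merge5 a) 2)) (Nat.beq (lab Data.merge5 a) 2) (adjA 0 a) &&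
    Bool.rec (!(Nat.beq (lab Data.merge5 a) 0)) (Nat.beq (lab Data.merge5 a) 0) (Nat.beq a 0)) 416 0 = true := by
  decide +kernel

theorem shapeC : allFrom (fun c =>
    Bool.rec (!(Nat.beq (lab Data.mergeC c) 1)) (Nat.beq (lab Data.mergeC c) 1) (tb Data.d320 c) &&
    Bool.rec (!(Nat.beq (lab Data.mergeC c) 3)) (Nat.beq (lab Data.mergeC c) 3) (Nat.beq c Data.c0))
    1365 0 = true := by
  decide +kernel

end Cfsg.Agent.H11.Suz
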