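import Mathlib

/-!
A sequence which increases along some enumeration takes distinct values.
-/

set_option autoImplicit false

namespace Cfsg.Agent.H11.Suz

/-- A function increasing along an enumeration is injective. -/
theorem inj_of_ord {n : ℕ} (f : ℕ → ℕ) (o : ℕ → ℕ) (ho : ∀ i, i < n → o i < n)
    (hstep : ∀ i, i + 1 < n → f (o i) < f (o (i + 1))) :
    Function.Injective fun i : Fin n => f i := by
  have hlt : ∀ b, b < n → ∀ a < b, f (o a) < f (o b) := by
    intro b
    induction b with
    | zero => omega
    | succ b ih =>
      intro hb a ha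
      rcases Nat.lt_succ_iff_lt_or_eq.1 ha with e | e
      · exact (ih (by omega) a e).trans (hstep b hb)
      · rw [e]; exact hstep b hb
  let o' : Fin n → Fin n := fun i => ⟨o i, ho i i.2⟩
  have hinj : Function.Injective fun i => f (o' i : Fin n) := fun a b e => by
    rcases lt_trichotomy (a : ℕ) b with h | h | h
    · exact absurd e (hlt _ b.2 _ h).ne
    · exact Fin.ext h
    · exact absurd e (hlt _ a.2 _ h).ne'
  have hsurj : Function.Surjective o' :=
    Finite.injective_iff_surjective.1 (Function.Injective.of_comp (f := fun i : Fin n => f i) hinj)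
  intro i j hij
  obtain ⟨a, rfl⟩ := hsurj i
  obtain ⟨b, rfl⟩ := hsurj j
  exact congrArg o' (hinj hij)

end Cfsg.Agent.H11.Suz
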