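import Cfsg.Agent.H11.Suz.Loc
import Cfsg.Agent.H11.Suz.Ord
import Cfsg.Agent.H11.Suz.Checks4
import Cfsg.Agent.H11.Suz.Checks5
import Cfsg.Agent.H11.Suz.Checks8
import Cfsg.Agent.H11.McL.Std

/-!
A subgroup of index 1365 of the stabiliser fixes one of the 1365 points or is a conjugate of the
stabiliser of a set of five of them.
-/

set_option autoImplicit false

open Equiv Cfsg.Agent.H16 Cfsg.Agent.H36

namespace Cfsg.Agent.H11.Suz

open Data

theorem baseA_eq : baseA = lvA.map Prod.fst := by decide +kernel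

theorem baseA_lt : ∀ x ∈ baseA, x < 416 := by decide +kernel

theorem ext_baseA {g g' : X} (h : ∀ x : Fin 416, (x : ℕ) ∈ baseA → rA g x = rA g' x) : g = g' := by
  have h1 : rA (g'⁻¹ * g) = 1 := by
    refine (levels_sound (n := 416) (T := aTab) lvA 0 levelsA_ok (fun i _ => by simp [tb_eq])).2 _
      ⟨rA_aut _, fun x hx => absurd hx (by simp [tb_eq])⟩ fun p hp x hx => ?_
    have hxA : (x : ℕ) ∈ baseA := by rw [baseA_eq, List.mem_map]; exact ⟨p, hp, hx.symm⟩
    rw [map_mul, map_inv, Perm.mul_apply, h x hxA]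
    exact (rA g').symm_apply_apply x
  exact (inv_mul_eq_one.1 (rA_inj (h1.trans (map_one rA).symm))).symm

theorem seq_exists {k : ℕ} (hk : k < 12) : ∃ g : X,
    (∀ x : Fin 1782, (((g : Perm (Fin 1782)) x : Fin 1782) : ℕ) = apE (getN seqL k) x) ∧
    (∀ i : Fin 416, (rA g i : ℕ) = apA (getN seqL k) i) ∧ rC g c0F = c0F := by
  have h := pc_ok k hk
  simp only [pcOk, forceNat_eq, Bool.and_eq_true, Nat.blt_eq] at h
  obtain ⟨g, hg, hA, hC⟩ := el_X h.1.1.1.1
  exact ⟨g, hg, hA, Fin.ext ((hC c0F).trans (Nat.eq_of_beq_eq_true h.1.1.1.2))⟩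

/-- The generators of the 2-subgroup. -/
noncomputable def seqG (k : ℕ) : X := if h : k < 12 then (seq_exists h).choose else 1

theorem seqG_spec {k : ℕ} (hk : k < 12) :
    (∀ x : Fin 1782, (((seqG k : Perm (Fin 1782)) x : Fin 1782) : ℕ) = apE (getN seqL k) x) ∧
    (∀ i : Fin 416, (rA (seqG k) i : ℕ) = apA (getN seqL k) i) ∧ rC (seqG k) c0F = c0F := by
  rw [seqG, dif_pos hk]; exact (seq_exists hk).choose_spec

theorem seqG_c0 (k : ℕ) : rC (seqG k) c0F = c0F := by
  by_cases hk : k < 12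
  · exact (seqG_spec hk).2.2
  · rw [seqG, dif_neg hk, map_one]; rfl

/-- The product of a word. -/
noncomputable def wordG (w : List ℕ) : X := (w.map seqG).prod

theorem wordG_apply : ∀ (w : List ℕ), (∀ a ∈ w, a < 12) → ∀ x : Fin 1782,
    (((wordG w : Perm (Fin 1782)) x : Fin 1782) : ℕ) = evalG seqL w x
  | [], _, x => by simp [wordG, evalG]
  | a :: w, h, x => by
    have ih := wordG_apply w (fun b hb => h b (List.mem_cons_of_mem _ hb)) x
    show (((seqG a * wordG w : X) : Perm (Fin 1782)) x : ℕ) = forceNat (evalG seqL w x) fun y => apE (getN seqL a) y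
    rw [forceNat_eq, Subgroup.coe_mul, Perm.mul_apply, (seqG_spec (h a List.mem_cons_self)).1, ih]

theorem wordG_rA {w : List ℕ} (h : ∀ a ∈ w, a < 12) (i : Fin 416) :
    (rA (wordG w) i : ℕ) = evalA seqL w i := by
  have h1 := wordG_apply w h (Apt i)
  rw [rA_spec] at h1
  exact (Apt_facts _).1.symm.trans (congrArg idx h1)

theorem wordG_rC {w : List ℕ} (h : ∀ a ∈ w, a < 12) (c : Fin 1365) :
    (rC (wordG w) c : ℕ) = idx (evalG seqL w (cp c)) := by
  have h1 := wordG_apply w h (Cpt c)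
  rw [rC_spec] at h1
  exact (Cpt_facts _).1.symm.trans (congrArg idx h1)

/-- The terms of the series. -/
noncomputable def Uk (k : ℕ) : Subgroup X := Subgroup.closure (seqG '' Set.Iio k)

theorem wordG_mem {k : ℕ} {w : List ℕ} (hw : ∀ a ∈ w, a < k) : wordG w ∈ Uk k :=
  list_prod_mem fun g hg => by
    obtain ⟨a, ha, rfl⟩ := List.mem_map.1 hg
    exact Subgroup.subset_closure ⟨a, hw a ha, rfl⟩

theorem pc_step {k : ℕ} (hk : k < 12) : seqG k ^ 2 ∈ Uk k ∧
    ∀ j < k, seqG k * seqG j * (seqG k)⁻¹ ∈ Uk k := by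
  have h := pc_ok k hk
  simp only [pcOk, forceNat_eq, Bool.and_eq_true] at h
  obtain ⟨⟨⟨-, hw⟩, h2⟩, hc⟩ := h
  have hall : ∀ (l : List ℕ) (m : ℕ), (l.all fun a => Nat.blt a m) = true → ∀ a ∈ l, a < m :=
    fun l m h a ha => Nat.le_of_ble_eq_true (List.all_eq_true.1 h a ha)
  rw [List.all_eq_true] at h2
  constructor
  · have e : seqG k ^ 2 = wordG (getW sqW k) := by
      refine ext_baseA fun x hx => Fin.ext ?_
      rw [wordG_rA (fun a ha => (hall _ _ hw a ha).trans hk), sq, map_mul, Perm.mul_apply,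
        (seqG_spec hk).2.1, (seqG_spec hk).2.1]
      exact Nat.eq_of_beq_eq_true (h2 x hx)
    rw [e]; exact wordG_mem (hall _ _ hw)
  · intro j hj
    have hj' := allFrom_spec hc j (Nat.zero_le _) (by omega)
    simp only [Bool.and_eq_true] at hj'
    have hwj := hall _ _ hj'.1
    have hb := hj'.2
    rw [List.all_eq_true] at hb
    have e : seqG k * seqG j = wordG (getW (conjW.getD k []) j) * seqG k := by
      refine ext_baseA fun x hx => Fin.ext ?_
      rw [map_mul, map_mul, Perm.mul_apply, Perm.mul_apply, wordG_rA (fun a ha => (hwj a ha).trans hk),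
        (seqG_spec hk).2.1, (seqG_spec hk).2.1, (seqG_spec (hj.trans hk)).2.1]
      exact Nat.eq_of_beq_eq_true (hb x hx)
    rw [e, mul_inv_cancel_right]; exact wordG_mem hwj

theorem Uk_pGroup : ∀ k, k ≤ 12 → IsPGroup 2 (Uk k) := by
  intro k
  induction k with
  | zero =>
    intro _
    rw [Uk, show seqG '' Set.Iio 0 = ∅ by simp, Subgroup.closure_empty]
    exact IsPGroup.of_bot
  | succ k ih =>
    intro hk
    obtain ⟨h2, hc⟩ := pc_step (k := k) (by omega)
    have e : Uk (k + 1) = Uk k ⊔ Subgroup.zpowers (seqG k) := by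
      rw [Uk, Uk, Subgroup.zpowers_eq_closure, ← Subgroup.closure_union]
      congr 1
      rw [show Set.Iio (k + 1) = Set.Iio k ∪ {k} by ext; simp, Set.image_union, Set.image_singleton]
    rw [e]
    refine McL.isPGroup_step _ _ (ih (by omega)) h2 ?_
    have hle : (Uk k).map (MulAut.conj (seqG k)).toMonoidHom ≤ Uk k := by
      rw [Uk, MonoidHom.map_closure, Subgroup.closure_le]
      rintro _ ⟨_, ⟨j, hj, rfl⟩, rfl⟩
      exact hc j hj
    have heq := Subgroup.eq_of_le_of_card_ge hle (le_of_eq (Subgroup.card_map_of_injective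
      (MulEquiv.injective _)).symm)
    rw [Subgroup.mem_normalizer_iff]
    intro x
    refine ⟨fun hx => hle ⟨x, hx, rfl⟩, fun hx => ?_⟩
    have hx' : seqG k * x * (seqG k)⁻¹ ∈ (Uk k).map (MulAut.conj (seqG k)).toMonoidHom := heq.ge hx
    obtain ⟨y, hy, ey⟩ := hx'
    simp only [MulEquiv.coe_toMonoidHom, MulAut.conj_apply, mul_left_inj, mul_right_inj] at ey
    exact ey ▸ hy

/-- The mask of a block. -/
noncomputable def blkMask (l : List (ℕ × List ℕ)) : ℕ :=
  List.rec (motive := fun _ => ℕ) 0 (fun q _ ih => forceNat ih fun ih => Nat.lor (Nat.shiftLeft 1 q.1) ih) l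

theorem tb_blkMask : ∀ (l : List (ℕ × List ℕ)) (y : ℕ), tb (blkMask l) y = true ↔ ∃ q ∈ l, q.1 = y
  | [], y => by simp [blkMask, tb_eq]
  | q :: l, y => by
    show tb (forceNat (blkMask l) fun ih => Nat.lor (Nat.shiftLeft 1 q.1) ih) y = true ↔ _
    rw [forceNat_eq, tb_lor_shift, Bool.or_eq_true, decide_eq_true_eq, tb_blkMask l y]
    simp

/-- The union of selected blocks. -/
noncomputable def unionMask (sel : ℕ → Bool) : List (ℕ × List (ℕ × List ℕ)) → ℕ :=
  List.rec (motive := fun _ => ℕ) 0 (fun p _ ih => bif sel p.1 then Nat.lor (blkMask p.2) ih else ih)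

theorem tb_unionMask (sel : ℕ → Bool) : ∀ (L : List (ℕ × List (ℕ × List ℕ))) (y : ℕ),
    tb (unionMask sel L) y = true ↔ ∃ p ∈ L, sel p.1 = true ∧ ∃ q ∈ p.2, q.1 = y
  | [], y => by simp [unionMask, tb_eq]
  | p :: L, y => by
    have ih := tb_unionMask sel L y
    show tb (bif sel p.1 then Nat.lor (blkMask p.2) (unionMask sel L) else unionMask sel L) y = true ↔ _
    cases hs : sel p.1
    · simp [hs, ih]
    · rw [cond_true, tb_eq, show Nat.lor (blkMask p.2) (unionMask sel L) = blkMask p.2 ||| unionMask sel L from rfl,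
        Nat.testBit_or, ← tb_eq, ← tb_eq, Bool.or_eq_true, tb_blkMask, ih]
      simp [hs]

/-- A selection of blocks. -/
def selB (b1 b2 b3 b4 b5 : Bool) (r : ℕ) : Bool :=
  Nat.beq r 1364 || (Nat.beq r 413 && b1) || (Nat.beq r 389 && b2) || (Nat.beq r 71 && b3) ||
    (Nat.beq r 28 && b4) || (Nat.beq r 0 && b5)

theorem union_sizes : ∀ b1 b2 b3 b4 b5 : Bool,
    (184320 % countFrom (fun y => tb (unionMask (selB b1 b2 b3 b4 b5) blocks) y) 1365 0 == 0) = true →
      (Nat.beq (unionMask (selB b1 b2 b3 b4 b5) blocks) (Nat.shiftLeft 1 c0) ||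
        Nat.beq (unionMask (selB b1 b2 b3 b4 b5) blocks) (lineMask 0)) = true := by
  decide +kernel

theorem blocks_cover : allFrom (fun y => tb (unionMask (fun _ => true) blocks) y) 1365 0 = true := by
  decide +kernel

theorem blocks_heads : ∀ p ∈ blocks, p.1 = 1364 ∨ p.1 = 413 ∨ p.1 = 389 ∨ p.1 = 71 ∨ p.1 = 28 ∨ p.1 = 0 := by
  decide +kernel

theorem block_word {p : ℕ × List (ℕ × List ℕ)} (hp : p ∈ blocks) {q : ℕ × List ℕ} (hq : q ∈ p.2) :
    ∃ g ∈ Uk 12, ∃ r y : Fin 1365, (r : ℕ) = p.1 ∧ (y : ℕ) = q.1 ∧ rC g r = y := by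
  have h := blocks_ok
  rw [List.all_eq_true] at h
  have h' := h p hp
  simp only [blockOk, Bool.and_eq_true, List.all_eq_true, Nat.blt_eq] at h'
  obtain ⟨⟨hy, hw⟩, he⟩ := h'.2 q hq
  exact ⟨wordG q.2, wordG_mem hw, ⟨p.1, h'.1⟩, ⟨q.1, hy⟩, rfl, rfl,
    Fin.ext ((wordG_rC hw _).trans (Nat.eq_of_beq_eq_true he))⟩

/-- A set containing the chosen point, closed under the 2-subgroup and of size dividing `184320`. -/
theorem union_cases (O : Set (Fin 1365)) (h0 : c0F ∈ O) (hcl : ∀ g ∈ Uk 12, ∀ x, rC g x ∈ O ↔ x ∈ O)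
    (hdvd : O.ncard ∣ 184320) :
    (∀ x, x ∈ O ↔ x = c0F) ∨ ∀ x : Fin 1365, x ∈ O ↔ tb (lineMask 0) x = true := by
  classical
  set sel := selB (decide ((⟨413, by norm_num⟩ : Fin 1365) ∈ O)) (decide ((⟨389, by norm_num⟩ : Fin 1365) ∈ O))
    (decide ((⟨71, by norm_num⟩ : Fin 1365) ∈ O)) (decide ((⟨28, by norm_num⟩ : Fin 1365) ∈ O))
    (decide ((⟨0, by norm_num⟩ : Fin 1365) ∈ O)) with hsel
  have hselO : ∀ p ∈ blocks, ∀ r : Fin 1365, (r : ℕ) = p.1 → (sel p.1 = true ↔ r ∈ O) := by
    intro p hp r hr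
    have h0' : (⟨1364, by norm_num⟩ : Fin 1365) ∈ O := h0
    rcases blocks_heads p hp with e | e | e | e | e | e <;>
    · rw [e] at hr ⊢
      have : r = ⟨_, hr ▸ r.2⟩ := Fin.ext hr
      rw [this]
      simp [sel, selB]
      all_goals exact h0'
  have hblock : ∀ p ∈ blocks, ∀ q ∈ p.2, ∀ r y : Fin 1365, (r : ℕ) = p.1 → (y : ℕ) = q.1 → (r ∈ O ↔ y ∈ O) := by
    intro p hp q hq r y hr hy
    obtain ⟨g, hg, r', y', hr', hy', e⟩ := block_word hp hq
    obtain rfl : r = r' := Fin.ext (hr.trans hr'.symm)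
    obtain rfl : y = y' := Fin.ext (hy.trans hy'.symm)
    rw [← e, hcl g hg]
  have hlt : ∀ p ∈ blocks, p.1 < 1365 := fun p hp => by
    rcases blocks_heads p hp with e | e | e | e | e | e <;> omega
  have hmem : ∀ y : Fin 1365, tb (unionMask sel blocks) y = true ↔ y ∈ O := by
    intro y
    rw [tb_unionMask]
    constructor
    · rintro ⟨p, hp, hs, q, hq, e⟩
      exact (hblock p hp q hq ⟨p.1, hlt p hp⟩ y rfl e.symm).1 ((hselO p hp ⟨p.1, hlt p hp⟩ rfl).1 hs)
    · intro hy
      have h2 := allFrom_spec blocks_cover y (Nat.zero_le _) (by omega)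
      obtain ⟨p, hp, -, q, hq, e⟩ := (tb_unionMask _ _ _).1 h2
      exact ⟨p, hp, (hselO p hp ⟨p.1, hlt p hp⟩ rfl).2
        ((hblock p hp q hq ⟨p.1, hlt p hp⟩ y rfl e.symm).2 hy), q, hq, e⟩
  have hcnt : countFrom (fun y => tb (unionMask sel blocks) y) 1365 0 = O.ncard := by
    rw [countFrom_spec, Set.ncard_eq_toFinset_card' O]
    refine (Finset.card_bij (fun (y : Fin 1365) _ => (y : ℕ)) (fun y hy => ?_)
      (fun a _ c _ e => Fin.val_injective e) ?_).symm
    · simpa [hmem] using hy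
    · intro n hn
      obtain ⟨h1, h2⟩ := Finset.mem_filter.1 hn
      exact ⟨⟨n, by simpa using h1⟩, by simpa [← hmem] using h2, rfl⟩
  have hc := union_sizes _ _ _ _ _ (by
    rw [← hsel, hcnt, beq_iff_eq]; exact Nat.mod_eq_zero_of_dvd hdvd)
  rw [← hsel, Bool.or_eq_true] at hc
  rcases hc with hc | hc
  · left
    intro x
    rw [← hmem, Nat.eq_of_beq_eq_true hc, tb_eq, show Nat.shiftLeft 1 c0 = 1 <<< c0 from rfl, Nat.one_shiftLeft,
      Nat.testBit_two_pow, decide_eq_true_eq]
    exact ⟨fun e => Fin.ext e.symm, fun e => by rw [e]; rfl⟩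
  · right
    intro x
    rw [← hmem, Nat.eq_of_beq_eq_true hc]

/-- The members of a set of five. -/
def lineSet (n : ℕ) : Set (Fin 1365) := {x | tb (lineMask n) x = true}

theorem mem_lineSet {n : ℕ} {x : Fin 1365} : x ∈ lineSet n ↔ tb (lineMask n) x = true := Iff.rfl

theorem line0_card : countFrom (fun y => tb (lineMask 0) y) 1365 0 = 5 := by decide +kernel

theorem lineSet_zero_card : (lineSet 0).ncard = 5 := by
  classical
  rw [← line0_card, countFrom_spec, Set.ncard_eq_toFinset_card' (lineSet 0)]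
  refine Finset.card_bij (fun (y : Fin 1365) _ => (y : ℕ)) (fun y hy => ?_)
    (fun a _ c _ e => Fin.val_injective e) ?_
  · exact Finset.mem_filter.2 ⟨Finset.mem_Ico.2 ⟨Nat.zero_le _, by omega⟩, mem_lineSet.1 (Set.mem_toFinset.1 hy)⟩
  · intro n hn
    obtain ⟨h1, h2⟩ := Finset.mem_filter.1 hn
    exact ⟨⟨n, by simpa using h1⟩, Set.mem_toFinset.2 (mem_lineSet.2 h2), rfl⟩

theorem lineMask_eq (n : ℕ) : lineMask n = maskOf 11 (lineTab.get 55 n) 5 := by
  rw [lineMask, forceNat_eq]

theorem line_mem {n : ℕ} {x : Fin 1365} :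
    x ∈ lineSet n ↔ ∃ j < 5, bitField (lineTab.get 55 n) (Nat.mul j 11) 11 = x := by
  show tb (lineMask n) x = true ↔ _
  rw [lineMask_eq, tb_maskOf]

theorem line_card_le (n : ℕ) : (lineSet n).ncard ≤ 5 := by
  have hsub : Fin.val '' lineSet n ⊆ ↑((Finset.range 5).image fun j => bitField (lineTab.get 55 n) (Nat.mul j 11) 11) := by
    rintro _ ⟨x, hx, rfl⟩
    obtain ⟨j, hj, e⟩ := line_mem.1 hx
    simp only [Finset.coe_image, Finset.coe_range, Set.mem_image, Set.mem_Iio]
    exact ⟨j, hj, e⟩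
  have h := Set.ncard_le_ncard hsub (Finset.finite_toSet _)
  rw [Set.ncard_image_of_injective _ Fin.val_injective, Set.ncard_coe_finset] at h
  exact h.trans (Finset.card_image_le.trans (by simp))

theorem line_images (n : Fin 1365) : ∃ g : X, rC g '' lineSet 0 = lineSet n := by
  obtain ⟨n, hn⟩ := n
  induction n using Nat.strong_induction_on with
  | _ n ih =>
    have h := line_ok n hn
    simp only [lineOk, forceNat_eq, Bool.and_eq_true, Bool.or_eq_true, Nat.blt_eq] at h
    rcases h.1.2 with h0 | ⟨⟨hp, hk⟩, hall⟩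
    · obtain rfl := Nat.eq_of_beq_eq_true h0
      exact ⟨1, by rw [map_one]; simp⟩
    · obtain ⟨g, hg⟩ := ih _ hp (lt_trans hp hn)
      refine ⟨sX hk * g, Set.eq_of_subset_of_ncard_le ?_ ?_ (Set.toFinite _)⟩
      · rw [map_mul, Perm.coe_mul, Set.image_comp, hg]
        rintro _ ⟨x, hx, rfl⟩
        obtain ⟨j, hj, e⟩ := line_mem.1 hx
        have h2 := allFrom_spec hall j (Nat.zero_le _) (by omega)
        rw [e] at h2
        show tb (lineMask n) _ = true
        rw [lineMask_eq, rC_sX]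
        exact h2
      · rw [Set.ncard_image_of_injective _ (Equiv.injective _), lineSet_zero_card]
        exact line_card_le n

theorem lineSet_inj : Function.Injective fun n : Fin 1365 => lineSet n := by
  intro a b e
  refine inj_of_ord lineMask (fun n => lineOrd.get 11 n) (fun n hn => ?_) (fun n hn => ?_) ?_
  · have h := line_ok n hn
    simp only [lineOk, forceNat_eq, Bool.and_eq_true, Nat.blt_eq] at h
    exact h.2.1
  · have h := line_ok (n + 1) hn
    simp only [lineOk, forceNat_eq, Bool.and_eq_true, Bool.or_eq_true, Nat.blt_eq] at h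
    exact h.2.2.resolve_left fun e => absurd (Nat.eq_of_beq_eq_true e) (by omega)
  · have hhigh : ∀ m : Fin 1365, ∀ y, 1365 ≤ y → tb (lineMask m) y = false := fun m y hy => by
      rw [Bool.eq_false_iff, ne_eq, lineMask_eq, tb_maskOf]
      rintro ⟨j, hj, e⟩
      have h := line_ok m m.2
      simp only [lineOk, forceNat_eq, Bool.and_eq_true] at h
      have := allFrom_spec h.1.1 j (Nat.zero_le _) (by omega)
      rw [Nat.blt_eq, e] at this
      omega
    refine Nat.eq_of_testBit_eq fun y => ?_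
    rw [← tb_eq, ← tb_eq]
    by_cases hy : y < 1365
    · have := Set.ext_iff.1 e ⟨y, hy⟩
      exact Bool.eq_iff_iff.2 this
    · rw [hhigh a y (not_lt.1 hy), hhigh b y (not_lt.1 hy)]

/-- The stabiliser of the first set of five. -/
noncomputable def stL : Subgroup X where
  carrier := {g | ∀ x, rC g x ∈ lineSet 0 ↔ x ∈ lineSet 0}
  one_mem' := fun x => by rw [map_one]; rfl
  mul_mem' := fun {a b} ha hb x => by rw [map_mul, Perm.mul_apply, ha, hb]
  inv_mem' := fun {a} ha x => by
    conv_rhs => rw [← (rC a).apply_symm_apply x]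
    rw [map_inv]
    exact (ha _).symm

theorem card_stL : Nat.card stL ≤ 184320 := by
  choose gs hgs using line_images
  have hinj : Function.Injective fun n => (QuotientGroup.mk (gs n) : X ⧸ stL) := by
    intro a b e
    have hm : (gs a)⁻¹ * gs b ∈ stL := QuotientGroup.eq.1 e
    refine lineSet_inj (show lineSet a = lineSet b from ?_)
    rw [← hgs a, ← hgs b]
    ext x
    simp only [Set.mem_image_equiv]
    have := hm ((rC (gs b)).symm x)
    rw [map_mul, map_inv, Perm.mul_apply, (rC (gs b)).apply_symm_apply] at this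
    exact this
  have h1 := Nat.card_le_card_of_injective _ hinj
  rw [Nat.card_fin, ← Subgroup.index] at h1
  have h2 := stL.card_mul_index
  rw [card_X] at h2
  by_contra hcon
  push Not at hcon
  have : 184321 * 1365 ≤ Nat.card stL * stL.index := Nat.mul_le_mul hcon h1
  omega

/-- The stabiliser of one of the 1365 points. -/
noncomputable def stC (c : Fin 1365) : Subgroup X := (MulAction.stabilizer (Perm (Fin 1365)) c).comap rC

theorem mem_stC {c : Fin 1365} {g : X} : g ∈ stC c ↔ rC g c = c := Iff.rfl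

theorem card_stC (c : Fin 1365) : Nat.card (stC c) = 184320 := by
  let _ : MulAction X (Fin 1365) := MulAction.compHom _ rC
  have horb : MulAction.orbit X c = Set.univ := by
    refine Set.eq_univ_of_forall fun j => ?_
    obtain ⟨g, hg⟩ := transC c
    obtain ⟨g', hg'⟩ := transC j
    exact ⟨g' * g⁻¹, by
      show rC (g' * g⁻¹) c = j
      rw [map_mul, map_inv, Perm.mul_apply, Perm.inv_eq_iff_eq.2 hg.symm, hg']⟩
  have h := H14.card_stab_mul' (G := X) c _ horb
  rw [Set.ncard_univ, Nat.card_fin, card_X] at h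
  show Nat.card (MulAction.stabilizer X c) = 184320
  omega

theorem gensL_stL {k : ℕ} (hk : k ∈ gensL) : ∃ h : X, (∀ i : Fin 416, (rA h i : ℕ) = apA k i) ∧ h ∈ stL := by
  have h := gensL_ok
  rw [List.all_eq_true] at h
  have h' := h k hk
  simp only [lineFix, forceNat_eq, Bool.and_eq_true, Nat.blt_eq] at h'
  obtain ⟨g, -, hA, hC⟩ := el_X h'.1
  refine ⟨g, hA, ?_⟩
  have hsub : rC g '' lineSet 0 ⊆ lineSet 0 := by
    rintro _ ⟨x, hx, rfl⟩
    obtain ⟨j, hj, e⟩ := line_mem.1 hx
    have h2 := allFrom_spec h'.2 j (Nat.zero_le _) (by omega)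
    rw [e] at h2
    show tb (lineMask 0) _ = true
    rw [lineMask_eq, hC]
    exact h2
  have heq := Set.eq_of_subset_of_ncard_le hsub (by rw [Set.ncard_image_of_injective _ (Equiv.injective _)])
    (Set.toFinite _)
  intro x
  conv_lhs => rw [← heq]
  exact (rC g).injective.mem_set_image

theorem fac_two : (251596800 : ℕ).factorization 2 = 12 ∧ (184320 : ℕ).factorization 2 = 12 := by
  constructor
  · rw [show (251596800 : ℕ) = 2 ^ 12 * 61425 by norm_num, Nat.factorization_mul (by norm_num) (by norm_num),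
      Finsupp.add_apply, Nat.Prime.factorization_pow (by norm_num), Finsupp.single_eq_same,
      Nat.factorization_eq_zero_of_not_dvd (by norm_num : ¬ 2 ∣ 61425)]
  · rw [show (184320 : ℕ) = 2 ^ 12 * 45 by norm_num, Nat.factorization_mul (by norm_num) (by norm_num),
      Finsupp.add_apply, Nat.Prime.factorization_pow (by norm_num), Finsupp.single_eq_same,
      Nat.factorization_eq_zero_of_not_dvd (by norm_num : ¬ 2 ∣ 45)]

/-- A subgroup of index 1365 fixes one of the 1365 points or is a conjugate of the stabiliser of a set of five. -/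
theorem exists_fixedC {Y : Subgroup X} (hY : Nat.card Y = 184320) :
    (∃ c : Fin 1365, Y = stC c) ∨
      ∃ g : X, ∀ k ∈ gensL, ∃ h : X, (∀ i : Fin 416, (rA h i : ℕ) = apA k i) ∧ g * h * g⁻¹ ∈ Y := by
  haveI : Fact (Nat.Prime 2) := ⟨by norm_num⟩
  obtain ⟨S, hS⟩ := (Uk_pGroup 12 le_rfl).exists_le_sylow
  obtain ⟨T⟩ : Nonempty (Sylow 2 Y) := inferInstance
  have hTcard : Nat.card ((T : Subgroup Y).map Y.subtype) = 4096 := by
    rw [Subgroup.card_map_of_injective Y.subtype_injective, T.card_eq_multiplicity, hY, fac_two.2]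
    norm_num
  obtain ⟨S', hS'⟩ := (T.isPGroup'.map Y.subtype).exists_le_sylow
  have hSY : (S' : Subgroup X) ≤ Y := by
    have := Subgroup.eq_of_le_of_card_ge hS' (by
      rw [hTcard, S'.card_eq_multiplicity, card_X, fac_two.1]; norm_num)
    rw [← this]
    exact Subgroup.map_subtype_le _
  obtain ⟨c, hc⟩ := MulAction.exists_smul_eq X S' S
  set Y' : Subgroup X := Y.map (MulAut.conj c).toMonoidHom with hY'
  have hcard' : Nat.card Y' = 184320 := by
    rw [hY', Subgroup.card_map_of_injective (MulEquiv.injective _)]; exact hY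
  have hUY : Uk 12 ≤ Y' := hS.trans (by
    rw [← hc, Sylow.coe_subgroup_smul]
    exact Subgroup.map_mono hSY)
  have hback : ∀ g, g ∈ Y ↔ c * g * c⁻¹ ∈ Y' := fun g => by
    rw [hY']
    exact (Subgroup.mem_map_iff_mem (f := (MulAut.conj c).toMonoidHom) (MulEquiv.injective _)).symm
  let _ : MulAction X (Fin 1365) := MulAction.compHom _ rC
  set O : Set (Fin 1365) := MulAction.orbit Y' c0F with hO
  have hcl : ∀ g ∈ Y', ∀ x, rC g x ∈ O ↔ x ∈ O := fun g hg x => by
    constructor
    · intro h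
      have := MulAction.mem_orbit_of_mem_orbit (⟨g⁻¹, Y'.inv_mem hg⟩ : Y') h
      have e : (⟨g⁻¹, Y'.inv_mem hg⟩ : Y') • (rC g x) = x := by
        show rC g⁻¹ (rC g x) = x
        rw [map_inv]; exact (rC g).symm_apply_apply x
      rwa [e] at this
    · exact fun h => MulAction.mem_orbit_of_mem_orbit (⟨g, hg⟩ : Y') h
  have hdvd : O.ncard ∣ 184320 := by
    rw [← hcard', hO, ← Nat.card_coe_set_eq, Nat.card_congr (MulAction.orbitEquivQuotientStabilizer Y' c0F)]
    exact Subgroup.card_quotient_dvd_card _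
  rcases union_cases O (MulAction.mem_orbit_self _) (fun g hg => hcl g (hUY hg)) hdvd with hc0 | hL
  · left
    have heq : Y' = stC c0F := Subgroup.eq_of_le_of_card_ge
      (fun g hg => (hc0 _).1 ⟨⟨g, hg⟩, rfl⟩) (by rw [hcard', card_stC])
    refine ⟨rC c⁻¹ c0F, ?_⟩
    ext g
    rw [hback, heq, mem_stC, mem_stC, map_mul, map_mul, Perm.mul_apply, Perm.mul_apply, map_inv]
    exact ⟨fun h => (Perm.eq_inv_iff_eq).2 h, fun h => (Perm.eq_inv_iff_eq).1 h⟩
  · right
    have hle : Y' ≤ stL := fun g hg x => by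
      show tb _ _ = true ↔ tb _ _ = true
      rw [← hL, ← hL, hcl g hg]
    have heq : Y' = stL := Subgroup.eq_of_le_of_card_ge hle (by rw [hcard']; exact card_stL)
    refine ⟨c⁻¹, fun k hk => ?_⟩
    obtain ⟨h, hA, hh⟩ := gensL_stL hk
    refine ⟨h, hA, (hback _).2 ?_⟩
    rw [heq, show c * (c⁻¹ * h * c⁻¹⁻¹) * c⁻¹ = h by group]
    exact hh

end Cfsg.Agent.H11.Suz
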