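import Cfsg.Agent.H11.Suz.Core

/-! Kernel checks for the recognition of the Suzuki group. -/

set_option autoImplicit false
set_option maxRecDepth 100000

open Cfsg.Agent.H16 Cfsg.Agent.H36

namespace Cfsg.Agent.H11.Suz

theorem slp0 : allFrom (fun k => D.slpOk k) 120 0 = true := by decide +kernel

theorem slp1 : allFrom (fun k => D.slpOk k) 120 120 = true := by decide +kernel

theorem slp2 : allFrom (fun k => D.slpOk k) 95 240 = true := by decide +kernel

theorem slp_ok : ∀ i, i < 335 → (fun k => D.slpOk k) i = true :=
  (allFrom_extend (allFrom_extend (allFrom_extend allFrom_nil slp0) slp1) slp2)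

theorem gen0 : allFrom (genOk) 900 0 = true := by decide +kernel

theorem gen1 : allFrom (genOk) 882 900 = true := by decide +kernel

theorem gen_ok : ∀ i, i < 1782 → (genOk) i = true :=
  (allFrom_extend (allFrom_extend allFrom_nil gen0) gen1)

theorem pt0 : allFrom (ptOk) 900 0 = true := by decide +kernel

theorem pt1 : allFrom (ptOk) 882 900 = true := by decide +kernel

theorem pt_ok : ∀ i, i < 1782 → (ptOk) i = true :=
  (allFrom_extend (allFrom_extend allFrom_nil pt0) pt1)

theorem ap4160 : allFrom (aOk) 416 0 = true := by decide +kernel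

theorem ap416_ok : ∀ i, i < 416 → (aOk) i = true :=
  (allFrom_extend allFrom_nil ap4160)

theorem cp0 : allFrom (cOk) 1365 0 = true := by decide +kernel

theorem cp_ok : ∀ i, i < 1365 → (cOk) i = true :=
  (allFrom_extend allFrom_nil cp0)

end Cfsg.Agent.H11.Suz
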