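import Cfsg.Agent.H11.Suz.Core

/-! Kernel checks for the recognition of the Suzuki group. -/

set_option autoImplicit false
set_option maxRecDepth 100000

open Cfsg.Agent.H16 Cfsg.Agent.H36

namespace Cfsg.Agent.H11.Suz

theorem adjA0 : allFrom (adjAOk) 140 0 = true := by decide +kernel

theorem adjA1 : allFrom (adjAOk) 140 140 = true := by decide +kernel

theorem adjA2 : allFrom (adjAOk) 136 280 = true := by decide +kernel

theorem adjA_ok : ∀ i, i < 416 → (adjAOk) i = true :=
  (allFrom_extend (allFrom_extend (allFrom_extend allFrom_nil adjA0) adjA1) adjA2)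

theorem apar0 : allFrom (aParOk) 416 0 = true := by decide +kernel

theorem apar_ok : ∀ i, i < 416 → (aParOk) i = true :=
  (allFrom_extend allFrom_nil apar0)

theorem cpar0 : allFrom (cParOk) 1365 0 = true := by decide +kernel

theorem cpar_ok : ∀ i, i < 1365 → (cParOk) i = true :=
  (allFrom_extend allFrom_nil cpar0)

end Cfsg.Agent.H11.Suz
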