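import Cfsg.Agent.H11.Suz.Core

/-! Kernel checks for the recognition of the Suzuki group. -/

set_option autoImplicit false
set_option maxRecDepth 100000

open Cfsg.Agent.H16 Cfsg.Agent.H36

namespace Cfsg.Agent.H11.Suz

theorem inS0 : allFrom (inSOk) 350 0 = true := by decide +kernel

theorem inS1 : allFrom (inSOk) 350 350 = true := by decide +kernel

theorem inS2 : allFrom (inSOk) 350 700 = true := by decide +kernel

theorem inS3 : allFrom (inSOk) 315 1050 = true := by decide +kernel

theorem inS_ok : ∀ i, i < 1365 → (inSOk) i = true :=
  (allFrom_extend (allFrom_extend (allFrom_extend (allFrom_extend allFrom_nil inS0) inS1) inS2) inS3)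

end Cfsg.Agent.H11.Suz
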