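import Cfsg.Agent.H11.Suz.Core

/-! Kernel checks for the recognition of the Suzuki group. -/

set_option autoImplicit false
set_option maxRecDepth 100000

open Cfsg.Agent.H16 Cfsg.Agent.H36

namespace Cfsg.Agent.H11.Suz

theorem piCl0 : allFrom (piClOk) 500 0 = true := by decide +kernel

theorem piCl1 : allFrom (piClOk) 500 500 = true := by decide +kernel

theorem piCl2 : allFrom (piClOk) 500 1000 = true := by decide +kernel

theorem piCl3 : allFrom (piClOk) 500 1500 = true := by decide +kernel

theorem piCl4 : allFrom (piClOk) 16 2000 = true := by decide +kernel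

theorem piCl_ok : ∀ i, i < 2016 → (piClOk) i = true :=
  (allFrom_extend (allFrom_extend (allFrom_extend (allFrom_extend (allFrom_extend allFrom_nil piCl0) piCl1) piCl2) piCl3) piCl4)

end Cfsg.Agent.H11.Suz
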