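import Cfsg.Agent.H11.Suz.Core

/-! Kernel checks for the recognition of the Suzuki group. -/

set_option autoImplicit false
set_option maxRecDepth 100000

open Cfsg.Agent.H16 Cfsg.Agent.H36

namespace Cfsg.Agent.H11.Suz

theorem piSig0 : allFrom (piSigOk) 700 0 = true := by decide +kernel

theorem piSig1 : allFrom (piSigOk) 700 700 = true := by decide +kernel

theorem piSig2 : allFrom (piSigOk) 616 1400 = true := by decide +kernel

theorem piSig_ok : ∀ i, i < 2016 → (piSigOk) i = true :=
  (allFrom_extend (allFrom_extend (allFrom_extend allFrom_nil piSig0) piSig1) piSig2)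

theorem n0 : allFrom (nOk) 3 0 = true := by decide +kernel

theorem n_ok : ∀ i, i < 3 → (nOk) i = true :=
  (allFrom_extend allFrom_nil n0)

theorem nPar0 : allFrom (nParOk) 700 0 = true := by decide +kernel

theorem nPar1 : allFrom (nParOk) 700 700 = true := by decide +kernel

theorem nPar2 : allFrom (nParOk) 616 1400 = true := by decide +kernel

theorem nPar_ok : ∀ i, i < 2016 → (nParOk) i = true :=
  (allFrom_extend (allFrom_extend (allFrom_extend allFrom_nil nPar0) nPar1) nPar2)

theorem genW_ok : genWOk = true := by decide +kernel

theorem s_ok : sOk = true := by decide +kernel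

end Cfsg.Agent.H11.Suz
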