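import Cfsg.Agent.H11.Suz.Hall
import Cfsg.Agent.H11.Suz.Ord
import Cfsg.Agent.H11.Suz.Checks6
import Cfsg.Agent.H11.Suz.Checks7

/-!
The subgroups of the stabiliser of order `604800` are the stabilisers of the 416 points.
The 5-subgroups of order 25 in the stabiliser of one of these points are used.
-/

set_option autoImplicit false

open Equiv Cfsg.Agent.H16 Cfsg.Agent.H36

namespace Cfsg.Agent.H11.Suz

open Data

/-- Conjugation of a subgroup. -/
noncomputable def conjBy (h : X) (Q : Subgroup X) : Subgroup X := Q.map (MulAut.conj h).toMonoidHom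

theorem mem_conjBy {h k : X} {Q : Subgroup X} : k ∈ conjBy h Q ↔ h⁻¹ * k * h ∈ Q := by
  rw [conjBy, Subgroup.mem_map_equiv, MulAut.conj_symm_apply]

theorem conjBy_one (Q : Subgroup X) : conjBy 1 Q = Q := by
  ext k; simp [mem_conjBy]

theorem conjBy_mul (a b : X) (Q : Subgroup X) : conjBy (a * b) Q = conjBy a (conjBy b Q) := by
  ext k
  simp only [mem_conjBy, mul_inv_rev]
  rw [show b⁻¹ * a⁻¹ * k * (a * b) = b⁻¹ * (a⁻¹ * k * a) * b from by group]

theorem card_conjBy (a : X) (Q : Subgroup X) : Nat.card (conjBy a Q) = Nat.card Q :=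
  (Nat.card_congr (Subgroup.equivMapOfInjective Q _ (MulAut.conj a).injective).toEquiv).symm

theorem conjBy_mono (a : X) {Q R : Subgroup X} (h : Q ≤ R) : conjBy a Q ≤ conjBy a R := Subgroup.map_mono h

theorem conjBy_sup (a : X) (Q R : Subgroup X) : conjBy a (Q ⊔ R) = conjBy a Q ⊔ conjBy a R := Subgroup.map_sup _ _ _

theorem conjBy_self {a : X} {Q : Subgroup X} (h : a ∈ Q) : conjBy a Q = Q := by
  ext k
  rw [mem_conjBy, Subgroup.mul_mem_cancel_right _ h, Subgroup.mul_mem_cancel_left _ (Q.inv_mem h)]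

theorem baseB_lt : ∀ z ∈ baseB, z < 100 := by decide +kernel

theorem exists_xy : (∃ g : X, Real g (pxAp 0)) ∧ ∃ g : X, Real g (pyAp 0) := by
  have h := p0_ok
  simp only [p0Ok, Bool.and_eq_true] at h
  have hz : ∀ z : Fin 100, pxAp 0 z = apB (getN xy 0) z ∧ pyAp 0 z = apB (getN xy 1) z := fun z => by
    have h' := allFrom_spec h.1.2 z (Nat.zero_le _) (by omega)
    simp only [Bool.and_eq_true] at h'
    exact ⟨Nat.eq_of_beq_eq_true h'.1.1.1.1, Nat.eq_of_beq_eq_true h'.1.1.1.2⟩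
  have hk : ∀ j < 2, getN xy j < D.ns ∧ apA (getN xy j) 0 = 0 := fun j hj => by
    have h' := allFrom_spec h.1.1.2 j (Nat.zero_le _) (by omega)
    rw [Bool.and_eq_true, Nat.blt_eq] at h'
    exact ⟨h'.1, Nat.eq_of_beq_eq_true h'.2⟩
  constructor
  · obtain ⟨g, hg⟩ := Real.entry (hk 0 (by omega)).1 (hk 0 (by omega)).2
    exact ⟨g, hg.congr fun z => (hz z).1.symm⟩
  · obtain ⟨g, hg⟩ := Real.entry (hk 1 (by omega)).1 (hk 1 (by omega)).2
    exact ⟨g, hg.congr fun z => (hz z).2.symm⟩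

/-- The first generator of the 5-subgroup. -/
noncomputable def xg : X := exists_xy.1.choose

/-- The second generator of the 5-subgroup. -/
noncomputable def yg : X := exists_xy.2.choose

theorem xg_real : Real xg (pxAp 0) := exists_xy.1.choose_spec

theorem yg_real : Real yg (pyAp 0) := exists_xy.2.choose_spec

theorem p0_rel {z : ℕ} (hz : z ∈ baseB) : powXY 0 5 0 z = z ∧ powXY 0 0 5 z = z ∧
    pxAp 0 (pyAp 0 z) = pyAp 0 (pxAp 0 z) := by
  have h := p0_ok
  simp only [p0Ok, Bool.and_eq_true] at h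
  have h' := allFrom_spec h.1.2 z (Nat.zero_le _) (by have := baseB_lt z hz; omega)
  simp only [Bool.and_eq_true] at h'
  exact ⟨Nat.eq_of_beq_eq_true h'.1.1.2, Nat.eq_of_beq_eq_true h'.1.2, Nat.eq_of_beq_eq_true h'.2⟩

theorem xg_five : xg ^ 5 = 1 := (xg_real.pow 5).eq Real.one fun _ hz => (p0_rel hz).1

theorem yg_five : yg ^ 5 = 1 := (yg_real.pow 5).eq Real.one fun _ hz => (p0_rel hz).2.1

theorem xy_comm : Commute xg yg := (xg_real.mul yg_real).eq (yg_real.mul xg_real) fun _ hz => (p0_rel hz).2.2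

/-- The 5-subgroup. -/
noncomputable def P : Subgroup X where
  carrier := {g | ∃ a b : ℕ, g = xg ^ a * yg ^ b}
  one_mem' := ⟨0, 0, by simp⟩
  mul_mem' := by
    rintro _ _ ⟨a, b, rfl⟩ ⟨c, d, rfl⟩
    exact ⟨a + c, b + d, by rw [pow_add, pow_add]; exact (xy_comm.symm.pow_pow b c).mul_mul_mul_comm _ _⟩
  inv_mem' := by
    rintro _ ⟨a, b, rfl⟩
    refine ⟨4 * a, 4 * b, inv_eq_of_mul_eq_one_right ?_⟩
    rw [(xy_comm.symm.pow_pow b (4 * a)).mul_mul_mul_comm, ← pow_add, ← pow_add,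
      show a + 4 * a = 5 * a by omega, show b + 4 * b = 5 * b by omega, pow_mul, pow_mul, xg_five, yg_five,
      one_pow, one_pow, one_mul]

theorem P_le : P ≤ stA 0 := by
  rintro _ ⟨a, b, rfl⟩
  exact (stA 0).mul_mem (pow_mem xg_real.mem a) (pow_mem yg_real.mem b)

theorem xg_mem_P : xg ∈ P := ⟨1, 0, by simp⟩

theorem yg_mem_P : yg ∈ P := ⟨0, 1, by simp⟩

theorem card_P_le : Nat.card P ≤ 25 := by
  have h : (P : Set X) ⊆ Set.range fun p : Fin 5 × Fin 5 => xg ^ (p.1 : ℕ) * yg ^ (p.2 : ℕ) := by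
    rintro _ ⟨a, b, rfl⟩
    exact ⟨(⟨a % 5, Nat.mod_lt _ (by norm_num)⟩, ⟨b % 5, Nat.mod_lt _ (by norm_num)⟩), by
      show xg ^ (a % 5) * yg ^ (b % 5) = xg ^ a * yg ^ b
      rw [← pow_eq_pow_mod a xg_five, ← pow_eq_pow_mod b yg_five]⟩
  refine (Set.ncard_le_ncard h (Set.finite_range _)).trans ?_
  rw [← Set.image_univ]
  refine (Set.ncard_image_le Set.finite_univ).trans ?_
  simp [Set.ncard_univ]

theorem exists_conjugator (i : Fin 2016) : ∃ g ∈ stA 0,
    Real (g * xg * g⁻¹) (pxAp i) ∧ Real (g * yg * g⁻¹) (pyAp i) := by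
  obtain ⟨i, hi⟩ := i
  induction i using Nat.strong_induction_on with
  | _ i ih =>
    have h := piPar_ok i hi
    simp only [piParOk, forceNat_eq, Bool.or_eq_true, Bool.and_eq_true, Nat.blt_eq] at h
    rcases h with h | ⟨⟨hp, hk⟩, he⟩
    · obtain rfl := Nat.eq_of_beq_eq_true h
      exact ⟨1, one_mem _, by simpa using xg_real, by simpa using yg_real⟩
    · obtain ⟨g, hg, hx, hy⟩ := ih _ hp (lt_trans hp hi)
      set p := bitField (piPar.get 16 i) 0 11
      set k := bitField (piPar.get 16 i) 11 5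
      have hk6 : k < 6 := by omega
      have hs := sX_stA hk
      set s : X := sX hk6 with hsdef
      have hinv : s⁻¹ = s := inv_eq_of_mul_eq_one_right (sX_sq hk6)
      have he' : ∀ z : Fin 100, gB k (pxAp p (gB k z)) = pxAp i z ∧ gB k (pyAp p (gB k z)) = pyAp i z := fun z => by
        have h' := allFrom_spec he z (Nat.zero_le _) (by omega)
        simp only [forceNat_eq, Bool.and_eq_true] at h'
        exact ⟨Nat.eq_of_beq_eq_true h'.1, Nat.eq_of_beq_eq_true h'.2⟩
      refine ⟨s * g, (stA 0).mul_mem hs hg, ?_, ?_⟩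
      · rw [show s * g * xg * (s * g)⁻¹ = s * (g * xg * g⁻¹) * s from by rw [mul_inv_rev, hinv]; group]
        exact (((Real.gen hk).mul hx).mul (Real.gen hk)).congr fun z => (he' z).1
      · rw [show s * g * yg * (s * g)⁻¹ = s * (g * yg * g⁻¹) * s from by rw [mul_inv_rev, hinv]; group]
        exact (((Real.gen hk).mul hy).mul (Real.gen hk)).congr fun z => (he' z).2

/-- A conjugating element. -/
noncomputable def cg (i : Fin 2016) : X := (exists_conjugator i).choose

theorem cg_spec (i : Fin 2016) : cg i ∈ stA 0 ∧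
    Real (cg i * xg * (cg i)⁻¹) (pxAp i) ∧ Real (cg i * yg * (cg i)⁻¹) (pyAp i) :=
  (exists_conjugator i).choose_spec

/-- A conjugate of the 5-subgroup. -/
noncomputable def Pi (i : Fin 2016) : Subgroup X := conjBy (cg i) P

/-- An element of a conjugate. -/
noncomputable def pel (i : Fin 2016) (a b : ℕ) : X := (cg i * xg * (cg i)⁻¹) ^ a * (cg i * yg * (cg i)⁻¹) ^ b

theorem mem_Pi {i : Fin 2016} {h : X} : h ∈ Pi i ↔ ∃ a b : ℕ, h = pel i a b := by
  have e : ∀ a b, pel i a b = cg i * (xg ^ a * yg ^ b) * (cg i)⁻¹ := fun a b => by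
    rw [pel, conj_pow, conj_pow]; group
  rw [Pi, mem_conjBy]
  constructor
  · rintro ⟨a, b, h'⟩
    exact ⟨a, b, by rw [e, ← h']; group⟩
  · rintro ⟨a, b, rfl⟩
    exact ⟨a, b, by rw [e]; group⟩

theorem Pi_le (i : Fin 2016) : Pi i ≤ stA 0 := by
  rw [← conjBy_self (cg_spec i).1]; exact conjBy_mono _ P_le

theorem pel_real (i : Fin 2016) (a b : ℕ) : Real (pel i a b) (powXY i a b) :=
  (((cg_spec i).2.1.pow a).mul ((cg_spec i).2.2.pow b)).congr fun _ => rfl

theorem tb_fold (f : ℕ → ℕ) : ∀ (n w : ℕ), tb (Nat.rec (motive := fun _ => ℕ) 0 (fun e ih => forceNat ih fun ih =>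
    Nat.lor (Nat.shiftLeft 1 (f e)) ih) n) w = true ↔ ∃ e < n, f e = w
  | 0, w => by simp [tb_eq]
  | n + 1, w => by
    show tb (forceNat _ fun ih => Nat.lor (Nat.shiftLeft 1 (f n)) ih) w = true ↔ _
    rw [forceNat_eq, tb_lor_shift, Bool.or_eq_true, decide_eq_true_eq, tb_fold f n w]
    constructor
    · rintro (h | ⟨j, hj, h⟩)
      · exact ⟨n, Nat.lt_succ_self n, h⟩
      · exact ⟨j, hj.trans (Nat.lt_succ_self n), h⟩
    · rintro ⟨j, hj, h⟩
      rcases Nat.lt_succ_iff_lt_or_eq.1 hj with hj | rfl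
      · exact Or.inr ⟨j, hj, h⟩
      · exact Or.inl h

theorem sig_spec {i : ℕ} (hi : i < 2016) (w : ℕ) :
    tb (piSig.get i) w = true ↔ ∃ e < 25, powXY i (Nat.div e 5) (Nat.mod e 5) 0 = w := by
  have h := piSig_ok i hi
  simp only [piSigOk, forceNat_eq, Bool.and_eq_true] at h
  rw [Nat.eq_of_beq_eq_true h.1]
  refine Iff.trans ?_ (tb_fold (fun e => powXY i (Nat.div e 5) (Nat.mod e 5) 0) 25 w)
  simp only [powXY, pxAp, pyAp, forceNat_eq]

/-- The image of the first of the 100 points. -/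
def Img0 (h : X) (w : ℕ) : Prop := ∃ hm : h ∈ stA 0, (rB ⟨h, hm⟩ 0 : ℕ) = w

theorem Real.img0 {h : X} {f : ℕ → ℕ} (hr : Real h f) {w : ℕ} : Img0 h w ↔ f 0 = w := by
  obtain ⟨hm, hv⟩ := hr
  constructor
  · rintro ⟨_, hw⟩
    exact (hv 0).symm.trans hw
  · exact fun e => ⟨hm, (hv 0).trans e⟩

theorem sig_Pi (i : Fin 2016) (w : ℕ) : tb (piSig.get i) w = true ↔ ∃ h ∈ Pi i, Img0 h w := by
  rw [sig_spec i.2]
  constructor
  · rintro ⟨e, -, he⟩
    exact ⟨_, mem_Pi.2 ⟨_, _, rfl⟩, (pel_real i _ _).img0.2 he⟩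
  · rintro ⟨h, hh, hw⟩
    obtain ⟨a, b, rfl⟩ := mem_Pi.1 hh
    have e : pel i a b = pel i (a % 5) (b % 5) := by
      rw [pel, pel, conj_pow, conj_pow, conj_pow, conj_pow, ← pow_eq_pow_mod a xg_five, ← pow_eq_pow_mod b yg_five]
    rw [e] at hw
    refine ⟨5 * (a % 5) + b % 5, by omega, ?_⟩
    show powXY i ((5 * (a % 5) + b % 5) / 5) ((5 * (a % 5) + b % 5) % 5) 0 = w
    rw [show (5 * (a % 5) + b % 5) / 5 = a % 5 by omega, show (5 * (a % 5) + b % 5) % 5 = b % 5 by omega]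
    exact (pel_real i _ _).img0.1 hw

theorem Pi_inj : Function.Injective Pi := by
  intro i j hij
  have hsig : piSig.get i = piSig.get j := Nat.eq_of_testBit_eq fun w => by
    rw [← tb_eq, ← tb_eq, Bool.eq_iff_iff, sig_Pi, sig_Pi, hij]
  have hord : ∀ n, n < 2016 → piOrd.get 11 n < 2016 ∧
      (n ≠ 0 → piSig.get (piOrd.get 11 (n - 1)) < piSig.get (piOrd.get 11 n)) := fun n hn => by
    have h := piSig_ok n hn
    simp only [piSigOk, forceNat_eq, Bool.and_eq_true, Bool.or_eq_true, Nat.blt_eq] at h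
    exact ⟨h.2.1, fun h0 => h.2.2.resolve_left fun e => h0 (Nat.eq_of_beq_eq_true e)⟩
  refine inj_of_ord (fun n => piSig.get n) (fun n => piOrd.get 11 n) (fun n hn => (hord n hn).1)
    (fun n hn => ?_) hsig
  have := (hord (n + 1) hn).2 (by omega)
  rwa [Nat.add_sub_cancel] at this

theorem sig_count : countFrom (fun w => tb (piSig.get 0) w) 100 0 = 25 := by decide +kernel

theorem Pi_zero : Pi 0 = P := by
  have e1 : cg 0 * xg * (cg 0)⁻¹ = xg := (cg_spec 0).2.1.eq xg_real fun _ _ => rfl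
  have e2 : cg 0 * yg * (cg 0)⁻¹ = yg := (cg_spec 0).2.2.eq yg_real fun _ _ => rfl
  ext h
  rw [mem_Pi]
  simp only [pel, e1, e2]
  rfl

theorem card_P : Nat.card P = 25 := by
  refine le_antisymm card_P_le ?_
  conv_lhs => rw [← sig_count, countFrom_spec]
  let φ : P → ℕ := fun h => (rB ⟨h, P_le h.2⟩ 0 : ℕ)
  have hsub : ↑((Finset.Ico 0 (0 + 100)).filter fun w => tb (piSig.get 0) w = true) ⊆ Set.range φ := by
    intro w hw
    rw [Finset.mem_coe, Finset.mem_filter] at hw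
    obtain ⟨h, hh, hm, e⟩ := (sig_Pi 0 w).1 hw.2
    rw [Pi_zero] at hh
    exact ⟨⟨h, hh⟩, e⟩
  have h1 := Set.ncard_le_ncard hsub (Set.finite_range _)
  rw [Set.ncard_coe_finset] at h1
  refine h1.trans ?_
  rw [← Set.image_univ]
  refine (Set.ncard_image_le Set.finite_univ).trans ?_
  rw [Set.ncard_univ]

theorem card_Pi (i : Fin 2016) : Nat.card (Pi i) = 25 := (card_conjBy _ _).trans card_P

theorem conjBy_eq_Pi {h : X} {i j : Fin 2016} (hx : h * (cg i * xg * (cg i)⁻¹) * h⁻¹ ∈ Pi j)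
    (hy : h * (cg i * yg * (cg i)⁻¹) * h⁻¹ ∈ Pi j) : conjBy h (Pi i) = Pi j := by
  refine Subgroup.eq_of_le_of_card_ge ?_ (by rw [card_conjBy, card_Pi, card_Pi])
  intro k hk
  obtain ⟨a, b, e⟩ := mem_Pi.1 (mem_conjBy.1 hk)
  have hk' : k = (h * (cg i * xg * (cg i)⁻¹) * h⁻¹) ^ a * (h * (cg i * yg * (cg i)⁻¹) * h⁻¹) ^ b := by
    rw [show k = h * (h⁻¹ * k * h) * h⁻¹ from by group, e, pel,
      conj_pow (a := h) (b := cg i * xg * (cg i)⁻¹), conj_pow (a := h) (b := cg i * yg * (cg i)⁻¹)]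
    group
  rw [hk']
  exact mul_mem (pow_mem hx a) (pow_mem hy b)

theorem cl_exists {h : X} (hh : h ∈ stA 0) : ∀ i : Fin 2016, ∃ j, conjBy h (Pi i) = Pi j := by
  refine stA_induction (P := fun h => ∀ i : Fin 2016, ∃ j, conjBy h (Pi i) = Pi j)
    (fun i => ⟨i, conjBy_one _⟩) (fun a b ha hb i => ?_) (fun k hk i => ?_) hh
  · obtain ⟨j, hj⟩ := hb i
    obtain ⟨l, hl⟩ := ha j
    exact ⟨l, by rw [conjBy_mul, hj, hl]⟩
  · have hk6 : k < 6 := by omega
    have hinv : (sX hk6)⁻¹ = sX hk6 := inv_eq_of_mul_eq_one_right (sX_sq hk6)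
    have h := allFrom_spec (piCl_ok i i.2) k (Nat.zero_le _) (by omega)
    simp only [forceNat_eq, Bool.and_eq_true, Nat.blt_eq, List.all_eq_true] at h
    obtain ⟨hj, hz⟩ := h
    refine ⟨⟨_, hj⟩, conjBy_eq_Pi ?_ ?_⟩
    · rw [hinv, (((Real.gen hk).mul (cg_spec i).2.1).mul (Real.gen hk)).eq (pel_real ⟨_, hj⟩ _ _)
        fun z hz' => Nat.eq_of_beq_eq_true (hz z hz').1]
      exact mem_Pi.2 ⟨_, _, rfl⟩
    · rw [hinv, (((Real.gen hk).mul (cg_spec i).2.2).mul (Real.gen hk)).eq (pel_real ⟨_, hj⟩ _ _)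
        fun z hz' => Nat.eq_of_beq_eq_true (hz z hz').2]
      exact mem_Pi.2 ⟨_, _, rfl⟩

/-- The stabiliser acting on the conjugates. -/
noncomputable def cj (h : stA 0) (i : Fin 2016) : Fin 2016 := (cl_exists h.2 i).choose

theorem cj_spec (h : stA 0) (i : Fin 2016) : conjBy h (Pi i) = Pi (cj h i) := (cl_exists h.2 i).choose_spec

/-- The action on the conjugates. -/
@[reducible] noncomputable def cjAct : MulAction (stA 0) (Fin 2016) where
  smul := cj
  one_smul i := Pi_inj (show Pi (cj 1 i) = Pi i from (cj_spec 1 i).symm.trans (conjBy_one _))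
  mul_smul a b i := Pi_inj (by
    show Pi (cj (a * b) i) = Pi (cj a (cj b i))
    rw [← cj_spec, ← cj_spec, ← cj_spec, ← conjBy_mul]; rfl)

/-- The normaliser of the 5-subgroup. -/
noncomputable def N : Subgroup X where
  carrier := {h | h ∈ stA 0 ∧ conjBy h P = P}
  one_mem' := ⟨one_mem _, conjBy_one _⟩
  mul_mem' := fun {a b} ha hb => ⟨mul_mem ha.1 hb.1, by rw [conjBy_mul, hb.2, ha.2]⟩
  inv_mem' := fun {a} ha => ⟨inv_mem ha.1, by
    conv_lhs => rw [← ha.2, ← conjBy_mul, inv_mul_cancel, conjBy_one]⟩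

theorem N_le : N ≤ stA 0 := fun _ h => h.1

theorem P_le_N : P ≤ N := fun _ h => ⟨P_le h, conjBy_self h⟩

theorem mem_N_iff (h : stA 0) : (h : X) ∈ N ↔ cj h 0 = 0 := by
  constructor
  · intro hn
    exact Pi_inj (by rw [← cj_spec, Pi_zero, hn.2])
  · intro e
    exact ⟨h.2, by rw [← Pi_zero, cj_spec, e]⟩

theorem card_N : Nat.card N = 300 := by
  let _ := cjAct
  have horb : MulAction.orbit (stA 0) (0 : Fin 2016) = Set.univ := Set.eq_univ_of_forall fun j =>
    ⟨⟨cg j, (cg_spec j).1⟩, Pi_inj (by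
      show Pi (cj _ 0) = Pi j
      rw [← cj_spec, Pi_zero]; rfl)⟩
  have h := H14.card_stab_mul' (G := stA 0) (0 : Fin 2016) _ horb
  rw [Set.ncard_univ, Nat.card_fin, card_stA] at h
  have e : MulAction.stabilizer (stA 0) (0 : Fin 2016) = N.subgroupOf (stA 0) := by
    ext g; exact (mem_N_iff g).symm
  rw [e, Nat.card_congr (Subgroup.subgroupOfEquivOfLe N_le).toEquiv] at h
  omega

theorem nL_spec {t : ℕ} (ht : t < 3) : ∃ h ∈ N, Real h (apB (getN nL t)) := by
  have h := n_ok t ht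
  simp only [nOk, forceNat_eq, Bool.and_eq_true, Nat.blt_eq, List.all_eq_true] at h
  obtain ⟨⟨hk, h0⟩, hz⟩ := h
  obtain ⟨g, hg⟩ := Real.entry hk (Nat.eq_of_beq_eq_true h0)
  refine ⟨g, ⟨hg.mem, ?_⟩, hg⟩
  rw [← Pi_zero]
  refine conjBy_eq_Pi ?_ ?_
  · have e := (hg.mul (cg_spec 0).2.1).eq ((pel_real 0 _ _).mul hg)
      fun z hz' => Nat.eq_of_beq_eq_true (hz z hz').1
    rw [e, mul_inv_cancel_right]
    exact mem_Pi.2 ⟨_, _, rfl⟩
  · have e := (hg.mul (cg_spec 0).2.2).eq ((pel_real 0 _ _).mul hg)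
      fun z hz' => Nat.eq_of_beq_eq_true (hz z hz').2
    rw [e, mul_inv_cancel_right]
    exact mem_Pi.2 ⟨_, _, rfl⟩

theorem genLet_real {i : Fin 2016} {c : ℕ} (hc : c < 4) : ∃ g ∈ P ⊔ Pi i, Real g (genLet i c) := by
  have hx : xg ∈ P ⊔ Pi i := Subgroup.mem_sup_left xg_mem_P
  have hy : yg ∈ P ⊔ Pi i := Subgroup.mem_sup_left yg_mem_P
  have hxi : cg i * xg * (cg i)⁻¹ ∈ P ⊔ Pi i := Subgroup.mem_sup_right (mem_Pi.2 ⟨1, 0, by simp [pel]⟩)
  have hyi : cg i * yg * (cg i)⁻¹ ∈ P ⊔ Pi i := Subgroup.mem_sup_right (mem_Pi.2 ⟨0, 1, by simp [pel]⟩)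
  interval_cases c
  · exact ⟨_, hx, xg_real⟩
  · exact ⟨_, hy, yg_real⟩
  · exact ⟨_, hxi, (cg_spec i).2.1⟩
  · exact ⟨_, hyi, (cg_spec i).2.2⟩

theorem gen_word {i : Fin 2016} (h : (genW.any fun g => Nat.beq g.1 i) = true) : stA 0 ≤ P ⊔ Pi i := by
  rw [List.any_eq_true] at h
  obtain ⟨g, hg, e⟩ := h
  have hw := genW_ok
  rw [genWOk, List.all_eq_true] at hw
  have hw' := hw g hg
  rw [Bool.and_eq_true, Nat.eq_of_beq_eq_true e] at hw'
  exact words_mem hw'.2 fun c hc => genLet_real hc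

theorem sn_word {i : Fin 2016} (h : (snW.any fun g => Nat.beq g.1 i) = true) : stA 0 ≤ N ⊔ (P ⊔ Pi i) := by
  rw [List.any_eq_true] at h
  obtain ⟨g, hg, e⟩ := h
  have hw := s_ok
  simp only [sOk, Bool.and_eq_true, List.all_eq_true] at hw
  have hw' := hw.1.2 g hg
  rw [Nat.eq_of_beq_eq_true e] at hw'
  refine words_mem hw'.2 fun c hc => ?_
  by_cases h3 : c < 3
  · obtain ⟨g, hgN, hr⟩ := nL_spec h3
    exact ⟨g, Subgroup.mem_sup_left hgN, hr.congr fun z => by
      rw [snLet, show Nat.blt c 3 = true from Nat.blt_eq ▸ h3]; rfl⟩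
  · obtain ⟨g, hgS, hr⟩ := genLet_real (i := i) (show c - 3 < 4 by omega)
    refine ⟨g, Subgroup.mem_sup_right hgS, hr.congr fun z => ?_⟩
    have : Nat.blt c 3 = false := by rw [Bool.eq_false_iff, ne_eq, Nat.blt_eq]; exact h3
    rw [snLet, this]; rfl

/-- A class under a normalising element. -/
theorem par_step {i p : Fin 2016} {t a b : ℕ} (ht : t < 3)
    (hz : ∀ z ∈ baseB,
      apB (getN nL t) (pxAp p z) = powXY i (Nat.div a 5) (Nat.mod a 5) (apB (getN nL t) z) ∧
      apB (getN nL t) (pyAp p z) = powXY i (Nat.div b 5) (Nat.mod b 5) (apB (getN nL t) z)) :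
    ∃ h ∈ N, conjBy h (Pi p) = Pi i := by
  obtain ⟨g, hg, hr⟩ := nL_spec ht
  refine ⟨g, hg, conjBy_eq_Pi ?_ ?_⟩
  · rw [(hr.mul (cg_spec p).2.1).eq ((pel_real i _ _).mul hr) fun z hz' => (hz z hz').1, mul_inv_cancel_right]
    exact mem_Pi.2 ⟨_, _, rfl⟩
  · rw [(hr.mul (cg_spec p).2.2).eq ((pel_real i _ _).mul hr) fun z hz' => (hz z hz').2, mul_inv_cancel_right]
    exact mem_Pi.2 ⟨_, _, rfl⟩

theorem two_generate : ∀ i : Fin 2016, i ≠ 0 → (sL.any fun q => Nat.beq q i) = true ∨ stA 0 ≤ P ⊔ Pi i := by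
  suffices ∀ r, ∀ i : Fin 2016, bitField (nPar.get 40 i) 23 9 = r → i ≠ 0 →
      (bitField (nPar.get 40 i) 32 1 = 1 → (sL.any fun q => Nat.beq q i) = true) ∧
      (bitField (nPar.get 40 i) 32 1 ≠ 1 → stA 0 ≤ P ⊔ Pi i) by
    intro i hi
    by_cases hs : bitField (nPar.get 40 i) 32 1 = 1
    · exact Or.inl ((this _ i rfl hi).1 hs)
    · exact Or.inr ((this _ i rfl hi).2 hs)
  intro r
  induction r using Nat.strong_induction_on with
  | _ r ih =>
    intro i hr hi
    have h := nPar_ok i i.2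
    simp only [nParOk, forceNat_eq, Bool.or_eq_true] at h
    have h0 : ¬ Nat.beq (i : ℕ) 0 = true := fun e => hi (Fin.ext (Nat.eq_of_beq_eq_true e))
    replace h := h.resolve_left h0
    refine ⟨fun hs => ?_, fun hs => ?_⟩
    · rw [hs] at h; exact h
    · rw [show Nat.beq (bitField (nPar.get 40 i) 32 1) 1 = false from
        Bool.eq_false_iff.2 fun e => hs (Nat.eq_of_beq_eq_true e), cond_false] at h
      simp only [Bool.or_eq_true, Bool.and_eq_true, Bool.not_eq_true', Nat.blt_eq, List.all_eq_true] at h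
      rcases h with h | ⟨⟨⟨⟨⟨hp, hp0⟩, ht⟩, hps⟩, hlt⟩, hz⟩
      · exact gen_word h
      · have hpne : (⟨_, hp⟩ : Fin 2016) ≠ 0 := fun e => by
          rw [show bitField (nPar.get 40 i) 0 11 = 0 from congrArg Fin.val e] at hp0
          exact Bool.noConfusion hp0
        have hgen := (ih _ (hr ▸ hlt) ⟨_, hp⟩ rfl hpne).2 (by rw [Nat.eq_of_beq_eq_true hps]; exact hs)
        obtain ⟨g, hg, hc⟩ := par_step (i := i) (p := ⟨_, hp⟩) ht
          fun z hz' => ⟨Nat.eq_of_beq_eq_true (hz z hz').1, Nat.eq_of_beq_eq_true (hz z hz').2⟩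
        have := conjBy_mono g hgen
        rwa [conjBy_self hg.1, conjBy_sup, hg.2, hc] at this

theorem sL_lt {q : ℕ} (hq : q ∈ sL) : q < 2016 := by
  have h := s_ok
  simp only [sOk, Bool.and_eq_true, List.all_eq_true, Nat.blt_eq] at h
  exact h.1.1.1.2 q hq

theorem sn_generate : ∀ i : Fin 2016, (i : ℕ) ∈ sL → stA 0 ≤ N ⊔ (P ⊔ Pi i) := by
  suffices ∀ r, ∀ i : Fin 2016, bitField (nPar.get 40 i) 23 9 = r → (i : ℕ) ∈ sL →
      stA 0 ≤ N ⊔ (P ⊔ Pi i) from fun i hi => this _ i rfl hi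
  intro r
  induction r using Nat.strong_induction_on with
  | _ r ih =>
    intro i hr hi
    have h := s_ok
    simp only [sOk, Bool.and_eq_true, List.all_eq_true] at h
    have h' := h.2 _ hi
    simp only [sParOk, forceNat_eq, Bool.or_eq_true, Bool.and_eq_true, Nat.blt_eq, List.all_eq_true] at h'
    rcases h' with h' | ⟨⟨⟨hp, ht⟩, hlt⟩, hz⟩
    · exact sn_word h'
    · rw [List.any_eq_true] at hp
      obtain ⟨q, hq, e⟩ := hp
      have hq' : bitField (nPar.get 40 i) 0 11 ∈ sL := Nat.eq_of_beq_eq_true e ▸ hq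
      have hgen := ih _ (hr ▸ hlt) ⟨_, sL_lt hq'⟩ rfl hq'
      obtain ⟨g, hg, hc⟩ := par_step (i := i) (p := ⟨_, sL_lt hq'⟩) ht
        fun z hz' => ⟨Nat.eq_of_beq_eq_true (hz z hz').1, Nat.eq_of_beq_eq_true (hz z hz').2⟩
      have := conjBy_mono g hgen
      rwa [conjBy_self hg.1, conjBy_sup, conjBy_sup, hg.2, conjBy_self hg, hc] at this

theorem all_generate {L : Subgroup X} (h : ∀ i : Fin 2016, (i : ℕ) ∈ sL → Pi i ≤ L) : stA 0 ≤ L := by
  have hs := s_ok
  simp only [sOk, Bool.and_eq_true] at hs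
  refine words_mem hs.1.1.2 fun c hc => ?_
  have hlen : c / 2 < sL.length := by
    rw [Nat.eq_of_beq_eq_true hs.1.1.1.1]; omega
  have hq : getN sL (c / 2) ∈ sL := getN_mem _ hlen
  have hle := h ⟨_, sL_lt hq⟩ hq
  obtain ⟨-, hx, hy⟩ := cg_spec ⟨_, sL_lt hq⟩
  cases h2 : Nat.beq (c % 2) 0
  · refine ⟨_, hle (mem_Pi.2 ⟨0, 1, by simp [pel]⟩), hy.congr fun z => ?_⟩
    show _ = cond (Nat.beq (c % 2) 0) _ _
    rw [h2]; rfl
  · refine ⟨_, hle (mem_Pi.2 ⟨1, 0, by simp [pel]⟩), hx.congr fun z => ?_⟩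
    show _ = cond (Nat.beq (c % 2) 0) _ _
    rw [h2]; rfl

theorem fac_five {n : ℕ} (h25 : 25 ∣ n) (hn : n ∣ 251596800) : n.factorization 5 = 2 := by
  have hp : Nat.Prime 5 := by norm_num
  have hn0 : n ≠ 0 := fun e => by subst e; norm_num at hn
  refine le_antisymm ?_ ((hp.pow_dvd_iff_le_factorization hn0).1 (by norm_num; exact h25))
  by_contra hcon
  have h3 : 5 ^ 3 ∣ n := (hp.pow_dvd_iff_le_factorization hn0).2 (by omega)
  have := h3.trans hn
  norm_num at this

theorem sL_set_card : (insert 0 {i : Fin 2016 | (i : ℕ) ∈ sL}).ncard ≤ 16 := by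
  refine (Set.ncard_insert_le _ _).trans ?_
  have hlen : sL.length = 15 := by
    have hs := s_ok
    simp only [sOk, Bool.and_eq_true] at hs
    exact Nat.eq_of_beq_eq_true hs.1.1.1.1
  have h2 : (Fin.val '' {i : Fin 2016 | (i : ℕ) ∈ sL}) ⊆ (sL.toFinset : Set ℕ) := by
    rintro _ ⟨i, hi, rfl⟩; simpa using hi
  have h3 := Set.ncard_le_ncard h2 (Finset.finite_toSet _)
  rw [Set.ncard_image_of_injective _ Fin.val_injective, Set.ncard_coe_finset] at h3
  have := sL.toFinset_card_le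
  omega

theorem local_all {K : Subgroup X} (hK : K ≤ stA 0) (hP : P ≤ K) (hcard : 1454 ≤ Nat.card K) : stA 0 ≤ K := by
  classical
  let _ := cjAct
  let _ : MulAction K (Fin 2016) := MulAction.compHom _ (Subgroup.inclusion hK)
  set O : Set (Fin 2016) := MulAction.orbit K (0 : Fin 2016) with hO
  have hmem : ∀ i ∈ O, Pi i ≤ K := by
    rintro i ⟨k, rfl⟩
    show Pi (cj (Subgroup.inclusion hK k) 0) ≤ K
    rw [← cj_spec, Pi_zero]
    exact (conjBy_mono _ hP).trans (le_of_eq (conjBy_self k.2))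
  by_cases hout : ∃ i ∈ O, i ≠ 0 ∧ (i : ℕ) ∉ sL
  · obtain ⟨i, hi, h0, hs⟩ := hout
    rcases two_generate i h0 with h | h
    · rw [List.any_eq_true] at h
      obtain ⟨q, hq, e⟩ := h
      exact absurd (Nat.eq_of_beq_eq_true e ▸ hq) hs
    · exact h.trans (sup_le hP (hmem i hi))
  push Not at hout
  have hst : MulAction.stabilizer K (0 : Fin 2016) = N.subgroupOf K := by
    ext g; exact (mem_N_iff (Subgroup.inclusion hK g)).symm
  have hmul := H14.card_stab_mul' (G := K) (0 : Fin 2016) O rfl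
  set m := Nat.card (MulAction.stabilizer K (0 : Fin 2016)) with hmdef
  -- the stabiliser is part of the normaliser
  have hm : m ∣ 300 := by
    rw [hmdef, hst, ← card_N]
    exact Subgroup.card_comap_dvd_of_injective _ K.subtype K.subtype_injective
  have hKd : Nat.card K ∣ 604800 := card_stA 0 ▸ Subgroup.card_dvd_of_le hK
  -- Sylow
  have hPK : Nat.card (P.subgroupOf K) = 25 :=
    (Nat.card_congr (Subgroup.subgroupOfEquivOfLe hP).toEquiv).trans card_P
  have hfac : (Nat.card K).factorization 5 = 2 :=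
    fac_five (card_P ▸ Subgroup.card_dvd_of_le hP) (hKd.trans (by norm_num))
  haveI : Fact (Nat.Prime 5) := ⟨by norm_num⟩
  let Q : Sylow 5 K := Sylow.ofCard (P.subgroupOf K) (by rw [hPK, hfac]; norm_num)
  have hnorm : Subgroup.normalizer ((Q : Subgroup K) : Set K) = MulAction.stabilizer K (0 : Fin 2016) := by
    rw [hst]
    ext g
    rw [Subgroup.mem_normalizer_iff, Subgroup.mem_subgroupOf]
    constructor
    · intro h
      refine ⟨hK g.2, ?_⟩
      ext k
      rw [mem_conjBy]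
      constructor
      · intro hk
        have := (h ⟨_, hP hk⟩).1 (show (_ : X) ∈ P from hk)
        simpa [Q, Subgroup.mem_subgroupOf, mul_assoc] using this
      · intro hk
        refine (h ⟨_, K.mul_mem (K.mul_mem (K.inv_mem g.2) (hP hk)) g.2⟩).2 ?_
        simpa [Q, Subgroup.mem_subgroupOf, mul_assoc] using hk
    · intro h k
      show (k : X) ∈ P ↔ (g : X) * k * (g : X)⁻¹ ∈ P
      conv_rhs => rw [← h.2, mem_conjBy]
      simp [mul_assoc]
  have hmod := card_sylow_modEq_one 5 K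
  rw [Q.card_eq_index_normalizer] at hmod
  erw [hnorm] at hmod
  rw [MulAction.index_stabilizer, ← hO, Nat.ModEq] at hmod
  have hsub : O ⊆ insert 0 {i : Fin 2016 | (i : ℕ) ∈ sL} := fun i hi => by
    by_cases h0 : i = 0
    · exact Or.inl h0
    · exact Or.inr (hout i hi h0)
  have hle : O.ncard ≤ 16 := (Set.ncard_le_ncard hsub (Set.toFinite _)).trans sL_set_card
  have hOd : O.ncard ∣ 604800 := (Dvd.intro _ hmul).trans hKd
  have hm0 : m ≤ 300 := Nat.le_of_dvd (by norm_num) hm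
  have hcases : O.ncard = 6 ∨ O.ncard = 16 := by
    generalize hn : O.ncard = n at *
    interval_cases n <;> omega
  rcases hcases with h6 | h16
  · have hm' : m = 300 := by
      rw [h6] at hmul
      have : 243 ≤ m := by omega
      obtain ⟨q, hq⟩ := hm
      interval_cases m <;> omega
    have hNK : N ≤ K := by
      intro x hx
      have hsub : N.subgroupOf K = MulAction.stabilizer K (0 : Fin 2016) := hst.symm
      have hcardle : (N ⊓ K) = N := by
        refine Subgroup.eq_of_le_of_card_ge inf_le_left ?_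
        rw [card_N, ← hm', hmdef, hst]
        exact le_of_eq (Nat.card_congr (Subgroup.equivMapOfInjective _ _ K.subtype_injective).toEquiv |>.trans
          (congrArg (fun S : Subgroup X => Nat.card S) (Subgroup.subgroupOf_map_subtype N K)))
      rw [← hcardle] at hx
      exact hx.2
    obtain ⟨i, hi, h0⟩ := (Set.one_lt_ncard (Set.toFinite O)).1 (by omega : 1 < O.ncard)
    obtain ⟨j, hj, hij⟩ := h0
    obtain ⟨l, hl, hl0⟩ : ∃ l ∈ O, l ≠ 0 := by
      by_cases h : i = 0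
      · exact ⟨j, hj, fun e => hij (h.trans e.symm)⟩
      · exact ⟨i, hi, h⟩
    exact (sn_generate l (hout l hl hl0)).trans (sup_le hNK (sup_le hP (hmem l hl)))
  · refine all_generate fun i hi => hmem i ?_
    have hcardeq : (insert 0 {i : Fin 2016 | (i : ℕ) ∈ sL}).ncard ≤ O.ncard := by
      rw [h16]; exact sL_set_card
    rw [Set.eq_of_subset_of_ncard_le hsub hcardeq (Set.toFinite _)]
    exact Or.inr hi

/-- A subgroup of order `604800` fixes one of the 416 points. -/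
theorem exists_fixedA {Y : Subgroup X} (hY : Nat.card Y = 604800) : ∃ i : Fin 416, Y = stA i := by
  haveI : Fact (Nat.Prime 5) := ⟨by norm_num⟩
  have hfX : (Nat.card X).factorization 5 = 2 := by rw [card_X]; exact fac_five (by norm_num) dvd_rfl
  have hfY : (Nat.card Y).factorization 5 = 2 := by rw [hY]; exact fac_five (by norm_num) (by norm_num)
  let R : Sylow 5 Y := default
  have hR : Nat.card ((R : Subgroup Y).map Y.subtype) = 5 ^ (Nat.card X).factorization 5 := by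
    rw [← Nat.card_congr (Subgroup.equivMapOfInjective _ _ Y.subtype_injective).toEquiv, R.card_eq_multiplicity,
      hfX, hfY]
  let RX : Sylow 5 X := Sylow.ofCard _ hR
  let PX : Sylow 5 X := Sylow.ofCard P (by rw [card_P, hfX]; norm_num)
  obtain ⟨g, hg⟩ := MulAction.exists_smul_eq X RX PX
  have hgR : conjBy g ((R : Subgroup Y).map Y.subtype) = P := by
    have := congrArg (fun S : Sylow 5 X => (S : Subgroup X)) hg
    exact (Sylow.coe_subgroup_smul (g := g) (P := RX)).symm.trans this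
  set Y' := conjBy g Y
  have hPY : P ≤ Y' := by
    rw [← hgR]; exact conjBy_mono _ (Subgroup.map_subtype_le _)
  have hY' : Nat.card Y' = 604800 := (card_conjBy _ _).trans hY
  have hrel : Nat.card Y' ≤ 416 * Nat.card (Y' ⊓ stA 0 : Subgroup X) := by
    have h1 := Subgroup.card_mul_index ((stA 0).subgroupOf Y')
    have h2 := Subgroup.card_mul_index (stA 0)
    rw [card_stA, card_X] at h2
    have hidx : (stA 0).index = 416 := by omega
    have h3 : ((stA 0).subgroupOf Y').index ≤ (stA 0).index :=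
      Subgroup.relIndex_top_right (stA 0) ▸ Subgroup.relIndex_le_of_le_right le_top (by
        rw [Subgroup.relIndex_top_right, hidx]; norm_num)
    have h4 : Nat.card ((stA 0).subgroupOf Y') = Nat.card (Y' ⊓ stA 0 : Subgroup X) := by
      rw [Nat.card_congr (Subgroup.equivMapOfInjective _ _ Y'.subtype_injective).toEquiv,
        Subgroup.subgroupOf_map_subtype, inf_comm]
    rw [hidx] at h3
    rw [← h1, h4, mul_comm]
    exact Nat.mul_le_mul_right _ h3
  have hle := local_all (K := Y' ⊓ stA 0) inf_le_right (le_inf hPY P_le) (by omega)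
  have heq : stA 0 = Y' :=
    Subgroup.eq_of_le_of_card_ge (hle.trans inf_le_left) (by rw [hY', card_stA])
  refine ⟨rA g⁻¹ 0, ?_⟩
  ext k
  rw [mem_stA]
  have hk : k ∈ Y ↔ g * k * g⁻¹ ∈ stA 0 := by
    rw [heq, mem_conjBy]; simp [mul_assoc]
  rw [hk, mem_stA, map_mul, map_mul, map_inv, Perm.mul_apply, Perm.mul_apply]
  constructor
  · intro e
    apply (rA g).injective
    rw [e]; exact ((rA g).apply_symm_apply 0).symm
  · intro e
    rw [e]; exact (rA g).apply_symm_apply 0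

end Cfsg.Agent.H11.Suz
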