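import Cfsg.Agent.H11.Suz.DataG
import Cfsg.Agent.H11.Suz.DataA
import Cfsg.Agent.H11.Suz.DataB
import Cfsg.Agent.H16.SuzHData

/-!
Functions and tests for the recognition of the Suzuki group on 1782 points.
-/

set_option autoImplicit false

open Cfsg.Agent.H16 Cfsg.Agent.H36 Cfsg.Agent.H36.AutEngine

namespace Cfsg.Agent.H11.Suz

open Data

/-- The certified program. -/
noncomputable def D : Ctx := ⟨1782, 11, genTab, nsN, slpTree, edgeArr⟩

/-- A bit. -/
noncomputable def tb (m i : ℕ) : Bool := Nat.beq (Nat.land (Nat.shiftRight m i) 1) 1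

/-- An entry applied to a point. -/
noncomputable def apE (k x : ℕ) : ℕ := D.ap (D.el k) x

/-- One of the 416 points. -/
noncomputable def ap416 (i : ℕ) : ℕ := aPts.get 11 i

/-- One of the 1365 points. -/
noncomputable def cp (c : ℕ) : ℕ := cPts.get 11 c

/-- The kind of a point. -/
noncomputable def kind (x : ℕ) : ℕ := Nat.div (posTab.get 14 x) 2048

/-- The index of a point in its part. -/
noncomputable def idx (x : ℕ) : ℕ := Nat.mod (posTab.get 14 x) 2048

/-- An entry on the 416 points. -/
noncomputable def apA (k i : ℕ) : ℕ := idx (apE k (ap416 i))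

/-- An entry on the 1365 points. -/
noncomputable def apC (k c : ℕ) : ℕ := idx (apE k (cp c))

/-- One of the 100 points. -/
noncomputable def bp (i : ℕ) : ℕ := bPts.get 9 i

/-- The index of one of the 100 points. -/
noncomputable def bIdx (a : ℕ) : ℕ := bPos.get 8 a

/-- An entry on the 100 points. -/
noncomputable def apB (k i : ℕ) : ℕ := bIdx (apA k (bp i))

/-- Adjacency on the 416 points. -/
noncomputable def adjA (i j : ℕ) : Bool := tb (aTab.get i) j

/-- Adjacency on the 100 points. -/
noncomputable def adjB (i j : ℕ) : Bool := tb (bTab.get i) j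

/-- Incidence of the 1365 with the 416. -/
noncomputable def inS (c i : ℕ) : Bool := tb (scTab.get c) i

/-- A product of entries applied to a point. -/
noncomputable def evalG (ks w : List ℕ) (x : ℕ) : ℕ :=
  List.rec (motive := fun _ => ℕ) x (fun c _ ih => forceNat ih fun y => apE (getN ks c) y) w

/-- A product of entries applied to one of the 416 points. -/
noncomputable def evalA (ks w : List ℕ) (i : ℕ) : ℕ := idx (evalG ks w (ap416 i))

/-- The first generator of a conjugate of the 5-subgroup. -/
noncomputable def pxAp (i z : ℕ) : ℕ := forceNat (piX.get i) fun P => pim 7 P z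

/-- The second generator. -/
noncomputable def pyAp (i z : ℕ) : ℕ := forceNat (piY.get i) fun P => pim 7 P z

/-- An element of a conjugate of the 5-subgroup, by its two exponents. -/
noncomputable def powXY (i a b z : ℕ) : ℕ :=
  iterPt (fun y => pxAp i y) a (iterPt (fun y => pyAp i y) b z)

/-! ### The points -/

/-- The generators are those of the enumeration. -/
noncomputable def genOk (x : ℕ) : Bool :=
  allFrom (fun k => Nat.beq (D.ap (getN genTab k) x) (H16.SuzH.data.act x k)) 6 0

/-- Kinds and indices, kept by the generators. -/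
noncomputable def ptOk (x : ℕ) : Bool :=
  (bif Nat.beq x 0 then Nat.beq (kind x) 0 else
    (bif Nat.beq (kind x) 1 then Nat.blt (idx x) 416 && Nat.beq (ap416 (idx x)) x
     else Nat.beq (kind x) 2 && Nat.blt (idx x) 1365 && Nat.beq (cp (idx x)) x)) &&
  allFrom (fun k => Nat.beq (kind (D.ap (getN genTab k) x)) (kind x)) 6 0

/-- A point among the 416. -/
noncomputable def aOk (i : ℕ) : Bool :=
  forceNat (ap416 i) fun x => Nat.blt x 1782 && Nat.beq (idx x) i && Nat.beq (kind x) 1

/-- A point among the 1365. -/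
noncomputable def cOk (c : ℕ) : Bool :=
  forceNat (cp c) fun x => Nat.blt x 1782 && Nat.beq (idx x) c && Nat.beq (kind x) 2

/-- The mask of packed members. -/
noncomputable def maskOf (w v n : ℕ) : ℕ :=
  Nat.rec (motive := fun _ => ℕ) 0
    (fun j ih => forceNat ih fun ih => Nat.lor (Nat.shiftLeft 1 (bitField v (Nat.mul j w) w)) ih) n

/-- Adjacency is kept by the generators. -/
noncomputable def adjAOk (i : ℕ) : Bool :=
  forceNat (aMem.get i) fun v => Nat.beq (maskOf 9 v 100) (aTab.get i) && !(adjA i i) &&
  allFrom (fun j => forceNat (bitField v (Nat.mul j 9) 9) fun y =>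
    Nat.blt y 416 && adjA y i) 100 0 &&
  allFrom (fun k => forceNat (getN genTab k) fun P =>
    forceNat (aTab.get (idx (D.ap P (ap416 i)))) fun m =>
      allFrom (fun j => tb m (idx (D.ap P (ap416 (bitField v (Nat.mul j 9) 9))))) 100 0) 6 0

/-- Incidence is kept by the generators; the traces increase. -/
noncomputable def inSOk (c : ℕ) : Bool :=
  forceNat (scMem.get c) fun v => Nat.beq (maskOf 9 v 96) (scTab.get c) &&
  (Nat.beq c 0 || Nat.blt (scTab.get (Nat.sub c 1)) (scTab.get c)) &&
  allFrom (fun j => Nat.blt (bitField v (Nat.mul j 9) 9) 416) 96 0 &&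
  allFrom (fun k => forceNat (getN genTab k) fun P =>
    forceNat (scTab.get (idx (D.ap P (cp c)))) fun m =>
      allFrom (fun j => tb m (idx (D.ap P (ap416 (bitField v (Nat.mul j 9) 9))))) 96 0) 6 0

/-- Every one of the 416 is reached from the first. -/
noncomputable def aParOk (i : ℕ) : Bool :=
  forceNat (aPar.get 16 i) fun v => forceNat (bitField v 0 11) fun p => forceNat (bitField v 11 5) fun k =>
    Nat.beq i 0 || (Nat.blt p i && Nat.blt k 6 && Nat.beq (idx (D.ap (getN genTab k) (ap416 p))) i)

/-- Every one of the 1365 is reached from the chosen one. -/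
noncomputable def cParOk (c : ℕ) : Bool :=
  forceNat (cPar.get 32 c) fun v => forceNat (bitField v 0 11) fun p => forceNat (bitField v 11 5) fun k =>
    Nat.beq c c0 || (Nat.blt p 1365 && Nat.blt k 6 &&
      Nat.blt (bitField (cPar.get 32 p) 16 16) (bitField v 16 16) &&
      Nat.beq (idx (D.ap (getN genTab k) (cp p))) c)

/-- A point is joined to the root of its class. -/
noncomputable def mergeOk (T : PArr) (roots ks : List ℕ) (f : ℕ → ℕ → ℕ) (n x : ℕ) : Bool :=
  forceNat (T.get 28 x) fun v => forceNat (bitField v 0 3) fun l =>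
  Nat.blt l roots.length &&
  (Nat.beq x (getN roots l) ||
    forceNat (bitField v 3 11) fun p => forceNat (bitField v 14 3) fun k =>
      Nat.blt p n && Nat.blt k ks.length && Nat.beq (bitField (T.get 28 p) 0 3) l &&
      Nat.blt (bitField (T.get 28 p) 17 11) (bitField v 17 11) && Nat.beq (f (getN ks k) p) x)

/-! ### The 2-subgroup -/

/-- The relations of the series, on the base. -/
noncomputable def pcOk (k : ℕ) : Bool :=
  forceNat (getN seqL k) fun g =>
  Nat.blt g D.ns && Nat.beq (apC g c0) c0 && ((getW sqW k).all fun a => Nat.blt a k) &&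
  (baseA.all fun x => Nat.beq (apA g (apA g x)) (evalA seqL (getW sqW k) x)) &&
  allFrom (fun j => forceNat (getN seqL j) fun h =>
    ((getW (conjW.getD k []) j).all fun a => Nat.blt a k) &&
    (baseA.all fun x => Nat.beq (apA g (apA h x)) (evalA seqL (getW (conjW.getD k []) j) (apA g x)))) k 0

/-- A block. -/
noncomputable def blockOk (p : ℕ × List (ℕ × List ℕ)) : Bool :=
  Nat.blt p.1 1365 && p.2.all fun q => Nat.blt q.1 1365 && (q.2.all fun a => Nat.blt a 12) &&
    Nat.beq (idx (evalG seqL q.2 (cp p.1))) q.1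

/-- The mask of a set of five. -/
noncomputable def lineMask (n : ℕ) : ℕ := forceNat (lineTab.get 55 n) fun v => maskOf 11 v 5

/-- The images of the set of five. -/
noncomputable def lineOk (n : ℕ) : Bool :=
  forceNat (lineTab.get 55 n) fun v =>
  allFrom (fun j => Nat.blt (bitField v (Nat.mul j 11) 11) 1365) 5 0 &&
  (Nat.beq n 0 ||
    forceNat (linePar.get 16 n) fun w => forceNat (bitField w 0 11) fun p => forceNat (bitField w 11 5) fun k =>
    forceNat (lineTab.get 55 p) fun u => forceNat (getN genTab k) fun P => forceNat (maskOf 11 v 5) fun m =>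
      Nat.blt p n && Nat.blt k 6 &&
      allFrom (fun j => tb m (idx (D.ap P (cp (bitField u (Nat.mul j 11) 11))))) 5 0) &&
  forceNat (lineOrd.get 11 n) (fun q => Nat.blt q 1365 &&
    (Nat.beq n 0 || Nat.blt (lineMask (lineOrd.get 11 (Nat.sub n 1))) (lineMask q)))

/-- An entry preserves the set of five. -/
noncomputable def lineFix (k : ℕ) : Bool :=
  forceNat (lineTab.get 55 0) fun v => forceNat (maskOf 11 v 5) fun m =>
  Nat.blt k D.ns && allFrom (fun j => tb m (apC k (bitField v (Nat.mul j 11) 11))) 5 0

/-! ### Rigidity -/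

/-- Points fixed one after the other. -/
noncomputable def propStep (n : ℕ) (T : NTree) (f : ℕ → Bool) : List ℕ → ℕ → Bool :=
  List.rec (motive := fun _ => ℕ → Bool) f
    (fun r _ ih F =>
      Nat.blt r n && forceNat (T.get r) (fun m =>
        allFrom (fun z => Nat.beq z r || tb F z || !(Nat.beq (Nat.land (Nat.xor (T.get z) m) F) 0)) n 0) &&
      forceNat (Nat.lor (Nat.shiftLeft 1 r) F) fun F' => ih F')

/-- Levels of a base with the numbers of candidates. -/
noncomputable def levelsOk (n : ℕ) (T : NTree) : List (ℕ × ℕ × List ℕ) → ℕ → Bool :=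
  List.rec (motive := fun _ => ℕ → Bool) (fun F => Nat.beq F (Nat.sub (Nat.pow 2 n) 1))
    (fun p _ ih F =>
      Nat.blt p.1 n && !(tb F p.1) && forceNat (T.get p.1) (fun m =>
        Nat.beq (countFrom (fun z => !(tb F z) && Nat.beq (Nat.land (Nat.xor (T.get z) m) F) 0) n 0) p.2.1) &&
      forceNat (Nat.lor (Nat.shiftLeft 1 p.1) F) fun F' => propStep n T (fun G => forceNat G fun G => ih G) p.2.2 F')

/-! ### Conjugates of the 5-subgroup -/

/-- One of the 100 points, with adjacency. -/
noncomputable def bOk (i : ℕ) : Bool :=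
  forceNat (bp i) fun a => Nat.blt a 416 && adjA 0 a && Nat.beq (bIdx a) i &&
  Nat.blt (bTab.get i) (Nat.pow 2 100) &&
  allFrom (fun j => Bool.rec (!(adjB i j)) (adjB i j) (adjA a (bp j))) 100 0

/-- The 100 points are the neighbours of the first. -/
noncomputable def bOnto (a : ℕ) : Bool := !(adjA 0 a) || (Nat.blt (bIdx a) 100 && Nat.beq (bp (bIdx a)) a)

/-- The five letters and the first conjugate. -/
noncomputable def p0Ok : Bool :=
  allFrom (fun k => Nat.beq (idx (D.ap (getN genTab k) (ap416 0))) 0) 5 0 &&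
  allFrom (fun j => Nat.blt (getN xy j) D.ns && Nat.beq (apA (getN xy j) 0) 0) 2 0 &&
  allFrom (fun z => Nat.beq (pxAp 0 z) (apB (getN xy 0) z) && Nat.beq (pyAp 0 z) (apB (getN xy 1) z) &&
    Nat.beq (powXY 0 5 0 z) z && Nat.beq (powXY 0 0 5 z) z &&
    Nat.beq (pxAp 0 (pyAp 0 z)) (pyAp 0 (pxAp 0 z))) 100 0 &&
  allFrom (fun i => Nat.beq i 0 || !(Nat.beq (apA (getN xy 0) i) i) || !(Nat.beq (apA (getN xy 1) i) i)) 416 0

/-- The generators on one of the 100 points. -/
noncomputable def gB (k z : ℕ) : ℕ := bIdx (idx (D.ap (getN genTab k) (ap416 (bp z))))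

/-- A conjugate comes from its parent. -/
noncomputable def piParOk (i : ℕ) : Bool :=
  forceNat (piPar.get 16 i) fun v => forceNat (bitField v 0 11) fun p => forceNat (bitField v 11 5) fun k =>
  Nat.beq i 0 || (Nat.blt p i && Nat.blt k 5 &&
    allFrom (fun z => forceNat (gB k z) fun w =>
      Nat.beq (gB k (pxAp p w)) (pxAp i z) && Nat.beq (gB k (pyAp p w)) (pyAp i z)) 100 0)

/-- The conjugates are closed under the letters. -/
noncomputable def piClOk (i : ℕ) : Bool :=
  allFrom (fun k => forceNat (piCl.get 24 (Nat.add (Nat.mul i 5) k)) fun v =>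
    forceNat (bitField v 0 11) fun j => forceNat (bitField v 11 5) fun a => forceNat (bitField v 16 5) fun b =>
    Nat.blt j 2016 && baseB.all fun z => forceNat (gB k z) fun w =>
      Nat.beq (gB k (pxAp i w)) (powXY j (Nat.div a 5) (Nat.mod a 5) z) &&
      Nat.beq (gB k (pyAp i w)) (powXY j (Nat.div b 5) (Nat.mod b 5) z)) 5 0

/-- Orbits of the first point, increasing in some order. -/
noncomputable def piSigOk (i : ℕ) : Bool :=
  forceNat (piX.get i) (fun X => forceNat (piY.get i) fun Y => Nat.beq (piSig.get i)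
    (Nat.rec (motive := fun _ => ℕ) 0 (fun e ih => forceNat ih fun ih =>
      Nat.lor (Nat.shiftLeft 1 (iterPt (fun z => pim 7 X z) (Nat.div e 5) (iterPt (fun z => pim 7 Y z) (Nat.mod e 5) 0))) ih) 25)) &&
  forceNat (piOrd.get 11 i) (fun q => Nat.blt q 2016 &&
    (Nat.beq i 0 || Nat.blt (piSig.get (piOrd.get 11 (Nat.sub i 1))) (piSig.get q)))

/-- The normalising elements. -/
noncomputable def nOk (t : ℕ) : Bool :=
  forceNat (getN nL t) fun h => forceNat ((nCl.getD t (0, 0)).1) fun a => forceNat ((nCl.getD t (0, 0)).2) fun b =>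
  Nat.blt h D.ns && Nat.beq (apA h 0) 0 &&
  baseB.all fun z => Nat.beq (apB h (pxAp 0 z)) (powXY 0 (Nat.div a 5) (Nat.mod a 5) (apB h z)) &&
    Nat.beq (apB h (pyAp 0 z)) (powXY 0 (Nat.div b 5) (Nat.mod b 5) (apB h z))

/-- The classes under the normalising elements. -/
noncomputable def nParOk (i : ℕ) : Bool :=
  forceNat (nPar.get 40 i) fun v =>
  forceNat (bitField v 0 11) fun p => forceNat (bitField v 11 2) fun t => forceNat (bitField v 13 5) fun a =>
  forceNat (bitField v 18 5) fun b => forceNat (bitField v 32 1) fun s =>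
  Nat.beq i 0 ||
  (bif Nat.beq s 1 then (sL.any fun q => Nat.beq q i) else
    (genW.any fun g => Nat.beq g.1 i) ||
    (Nat.blt p 2016 && !(Nat.beq p 0) && Nat.blt t 3 && Nat.beq (bitField (nPar.get 40 p) 32 1) s &&
      Nat.blt (bitField (nPar.get 40 p) 23 9) (bitField v 23 9) &&
      forceNat (getN nL t) fun h => baseB.all fun z =>
        Nat.beq (apB h (pxAp p z)) (powXY i (Nat.div a 5) (Nat.mod a 5) (apB h z)) &&
        Nat.beq (apB h (pyAp p z)) (powXY i (Nat.div b 5) (Nat.mod b 5) (apB h z))))

/-- The classes inside the exceptional ones. -/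
noncomputable def sParOk (i : ℕ) : Bool :=
  forceNat (nPar.get 40 i) fun v =>
  forceNat (bitField v 0 11) fun p => forceNat (bitField v 11 2) fun t => forceNat (bitField v 13 5) fun a =>
  forceNat (bitField v 18 5) fun b =>
  (snW.any fun g => Nat.beq g.1 i) ||
    ((sL.any fun q => Nat.beq q p) && Nat.blt t 3 &&
      Nat.blt (bitField (nPar.get 40 p) 23 9) (bitField v 23 9) &&
      forceNat (getN nL t) fun h => baseB.all fun z =>
        Nat.beq (apB h (pxAp p z)) (powXY i (Nat.div a 5) (Nat.mod a 5) (apB h z)) &&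
        Nat.beq (apB h (pyAp p z)) (powXY i (Nat.div b 5) (Nat.mod b 5) (apB h z)))

/-- A letter of the generation words for the conjugate `i`. -/
noncomputable def genLet (i c z : ℕ) : ℕ :=
  bif Nat.beq c 0 then pxAp 0 z else bif Nat.beq c 1 then pyAp 0 z else bif Nat.beq c 2 then pxAp i z else pyAp i z

/-- Evaluation of a word. -/
noncomputable def evalW' (f : ℕ → ℕ → ℕ) (w : List ℕ) (z : ℕ) : ℕ :=
  List.rec (motive := fun _ => ℕ) z (fun c _ ih => forceNat ih fun y => f c y) w

/-- Words give the five letters. -/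
noncomputable def wordsOk (f : ℕ → ℕ → ℕ) (len : ℕ) (ws : List (List ℕ)) : Bool :=
  allFrom (fun k => ((getW ws k).all fun c => Nat.blt c len) &&
    baseB.all fun z => Nat.beq (evalW' f (getW ws k) z) (gB k z)) 5 0

/-- The first conjugate and another generate. -/
noncomputable def genWOk : Bool :=
  genW.all fun g => Nat.blt g.1 2016 && wordsOk (genLet g.1) 4 g.2

/-- A letter of the words in the exceptional conjugates. -/
noncomputable def sLet (c z : ℕ) : ℕ :=
  bif Nat.beq (Nat.mod c 2) 0 then pxAp (getN sL (Nat.div c 2)) z else pyAp (getN sL (Nat.div c 2)) z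

/-- A letter of the words with the normalising elements. -/
noncomputable def snLet (i c z : ℕ) : ℕ :=
  bif Nat.blt c 3 then apB (getN nL c) z else genLet i (Nat.sub c 3) z

/-- The exceptional conjugates generate, also with the normalising elements. -/
noncomputable def sOk : Bool :=
  Nat.beq sL.length 15 && (sL.all fun i => Nat.blt i 2016) &&
  wordsOk sLet 30 sW &&
  (snW.all fun g => Nat.blt g.1 2016 && wordsOk (snLet g.1) 7 g.2) && (sL.all sParOk)

end Cfsg.Agent.H11.Suz
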