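import Cfsg.Agent.H11.Suz.Loc
import Cfsg.Agent.H11.Suz.Checks5

/-!
The stabiliser of one of the 416 points acts faithfully on its 100 neighbours.
-/

set_option autoImplicit false

open Equiv Cfsg.Agent.H16 Cfsg.Agent.H36

namespace Cfsg.Agent.H11.Suz

open Data

/-- The stabiliser of one of the 416 points. -/
noncomputable def stA (i : Fin 416) : Subgroup X := (MulAction.stabilizer (Perm (Fin 416)) i).comap rA

theorem mem_stA {i : Fin 416} {g : X} : g ∈ stA i ↔ rA g i = i := Iff.rfl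

theorem card_stA (i : Fin 416) : Nat.card (stA i) = 604800 := by
  let _ : MulAction X (Fin 416) := MulAction.compHom _ rA
  have horb : MulAction.orbit X i = Set.univ := by
    refine Set.eq_univ_of_forall fun j => ?_
    obtain ⟨g, hg⟩ := transA i
    obtain ⟨g', hg'⟩ := transA j
    exact ⟨g' * g⁻¹, by
      show rA (g' * g⁻¹) i = j
      rw [map_mul, map_inv, Perm.mul_apply, Perm.inv_eq_iff_eq.2 hg.symm, hg']⟩
  have h := H14.card_stab_mul' (G := X) i _ horb
  rw [Set.ncard_univ, Nat.card_fin, card_X] at h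
  show Nat.card (MulAction.stabilizer X i) = 604800
  omega

theorem sX_stA {k : ℕ} (hk : k < 5) : sX (show k < 6 by omega) ∈ stA 0 := by
  have h := p0_ok
  simp only [p0Ok, Bool.and_eq_true] at h
  refine Fin.ext ?_
  show (rA (sX _) 0 : ℕ) = 0
  rw [rA_sX]
  exact Nat.eq_of_beq_eq_true (allFrom_spec h.1.1.1 k (Nat.zero_le _) (by omega))

theorem stA_eq : stA 0 = J.subgroupOf X := by
  symm
  refine Subgroup.eq_of_le_of_card_ge ?_ ?_
  · have hle : J ≤ (stA 0).map X.subtype := by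
      rw [J, Subgroup.closure_le]
      rintro _ ⟨k, hk, rfl⟩
      exact ⟨_, sX_stA hk, rfl⟩
    intro g hg
    obtain ⟨g', hg', e⟩ := hle hg
    obtain rfl : g' = g := Subtype.ext e
    exact hg'
  · rw [card_stA, Nat.card_congr (Subgroup.subgroupOfEquivOfLe J_le).toEquiv, card_J]

theorem stA_induction {P : X → Prop} (h1 : P 1) (hmul : ∀ a b, P a → P b → P (a * b))
    (hgen : ∀ (k : ℕ) (hk : k < 5), P (sX (show k < 6 by omega))) {g : X} (hg : g ∈ stA 0) : P g := by
  rw [stA_eq, Subgroup.mem_subgroupOf] at hg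
  obtain ⟨g, hgX⟩ := g
  change g ∈ J at hg
  suffices ∀ h : g ∈ J, P ⟨g, J_le h⟩ from this hg
  intro h
  clear hgX hg
  induction h using Subgroup.closure_induction'' with
  | mem p hp =>
    obtain ⟨k, hk, rfl⟩ := hp
    exact hgen k hk
  | inv_mem p hp =>
    obtain ⟨k, hk, rfl⟩ := hp
    have hk6 : k < 6 := by omega
    have e : ((sX hk6)⁻¹ : X) = sX hk6 := inv_eq_of_mul_eq_one_right (sX_sq hk6)
    have := hgen k hk
    rw [← e] at this
    exact this
  | one => exact h1
  | mul a b ha hb iha ihb => exact hmul ⟨a, J_le ha⟩ ⟨b, J_le hb⟩ iha ihb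

/-- One of the 100 points. -/
noncomputable def Bpt (z : Fin 100) : Fin 416 :=
  ⟨bp z, by
    have h := b_ok z z.2
    simp only [bOk, forceNat_eq, Bool.and_eq_true, Nat.blt_eq] at h
    exact h.1.1.1.1⟩

theorem Bpt_facts (z : Fin 100) : adjA 0 (Bpt z) = true ∧ bIdx (Bpt z) = z ∧
    ∀ w : Fin 100, adjB z w = adjA (Bpt z) (Bpt w) := by
  have h := b_ok z z.2
  simp only [bOk, forceNat_eq, Bool.and_eq_true, Nat.blt_eq] at h
  exact ⟨h.1.1.1.2, Nat.eq_of_beq_eq_true h.1.1.2,
    fun w => brec_eq (allFrom_spec h.2 w (Nat.zero_le _) (by omega))⟩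

theorem Bpt_inj : Function.Injective Bpt := fun i j e => Fin.ext (by
  have h := (Bpt_facts i).2.1
  rw [e, (Bpt_facts j).2.1] at h
  exact h.symm)

theorem imgB_exists (g : stA 0) (z : Fin 100) : ∃ w, rA (g : X) (Bpt z) = Bpt w := by
  have h := adjA_rA (g : X) 0 (Bpt z)
  rw [show rA (g : X) 0 = 0 from g.2, show ((0 : Fin 416) : ℕ) = 0 from rfl, (Bpt_facts z).1] at h
  have h' := bOnto_ok (rA (g : X) (Bpt z) : Fin 416) (Fin.is_lt _)
  simp only [bOnto, h, Bool.not_true, Bool.false_or, Bool.and_eq_true, Nat.blt_eq] at h'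
  exact ⟨⟨_, h'.1⟩, Fin.ext (Nat.eq_of_beq_eq_true h'.2).symm⟩

/-- The image among the 100. -/
noncomputable def imgB (g : stA 0) (z : Fin 100) : Fin 100 := (imgB_exists g z).choose

theorem imgB_spec (g : stA 0) (z : Fin 100) : rA (g : X) (Bpt z) = Bpt (imgB g z) :=
  (imgB_exists g z).choose_spec

theorem imgB_mul (g h : stA 0) (z : Fin 100) : imgB (g * h) z = imgB g (imgB h z) :=
  Bpt_inj (by rw [← imgB_spec, ← imgB_spec, ← imgB_spec, Subgroup.coe_mul, map_mul]; rfl)

theorem imgB_one (z : Fin 100) : imgB 1 z = z := Bpt_inj (by rw [← imgB_spec, OneMemClass.coe_one, map_one]; rfl)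

/-- The action on the 100 points. -/
noncomputable def rB : stA 0 →* Perm (Fin 100) where
  toFun g :=
    { toFun := imgB g
      invFun := imgB g⁻¹
      left_inv := fun i => by rw [← imgB_mul, inv_mul_cancel, imgB_one]
      right_inv := fun i => by rw [← imgB_mul, mul_inv_cancel, imgB_one] }
  map_one' := Equiv.ext imgB_one
  map_mul' g h := Equiv.ext (imgB_mul g h)

theorem rB_spec (g : stA 0) (z : Fin 100) : rA (g : X) (Bpt z) = Bpt (rB g z) := imgB_spec g z

theorem rB_gen {k : ℕ} (hk : k < 5) (z : Fin 100) :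
    (rB ⟨_, sX_stA hk⟩ z : ℕ) = gB k z := by
  have h : ((rA (sX (show k < 6 by omega)) (Bpt z) : Fin 416) : ℕ) = _ :=
    rA_sX (show k < 6 by omega) (Bpt z)
  rw [rB_spec ⟨_, sX_stA hk⟩ z] at h
  exact (Bpt_facts _).2.1.symm.trans (congrArg bIdx h)

theorem moves_ok : allFrom (fun z => Nat.beq (gB 1 z) z) 100 0 = false := by decide +kernel

theorem rB_inj : Function.Injective rB := by
  have hsimple : IsSimpleGroup (stA 0) := by
    rw [stA_eq]
    exact (Subgroup.subgroupOfEquivOfLe J_le).isSimpleGroup_congr.2 J_simple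
  rw [← MonoidHom.ker_eq_bot_iff]
  refine (hsimple.eq_bot_or_eq_top_of_normal _ inferInstance).resolve_right fun h => ?_
  have hall : allFrom (fun z => Nat.beq (gB 1 z) z) 100 0 = true := by
    have hmem : (⟨_, sX_stA (show 1 < 5 by norm_num)⟩ : stA 0) ∈ rB.ker := h ▸ Subgroup.mem_top _
    have hz : ∀ z : Fin 100, gB 1 z = z := fun z => by
      rw [← rB_gen (show 1 < 5 by norm_num) z, MonoidHom.mem_ker.1 hmem]; rfl
    have aux : ∀ (n lo : ℕ), lo + n ≤ 100 → allFrom (fun z => Nat.beq (gB 1 z) z) n lo = true := by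
      intro n
      induction n with
      | zero => intro lo _; rfl
      | succ n ih =>
        intro lo hlo
        rw [allFrom_succ, ih (lo + 1) (by omega), Bool.and_true]
        have := hz ⟨lo, by omega⟩
        simp only at this
        simp [this]
    exact aux 100 0 le_rfl
  rw [moves_ok] at hall
  exact Bool.noConfusion hall

theorem rB_aut (g : stA 0) : rB g ∈ autOf 100 bTab := fun z w => by
  show adjB _ _ = adjB z w
  rw [(Bpt_facts z).2.2 w, (Bpt_facts _).2.2, ← rB_spec, ← rB_spec]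
  exact adjA_rA (g : X) _ _

theorem baseB_eq : baseB = lvB.map Prod.fst := by decide +kernel

/-- An element of the stabiliser with a given map of the 100 points. -/
def Real (g : X) (f : ℕ → ℕ) : Prop :=
  ∃ h : g ∈ stA 0, ∀ z : Fin 100, (rB ⟨g, h⟩ z : ℕ) = f z

theorem Real.mem {g : X} {f : ℕ → ℕ} (h : Real g f) : g ∈ stA 0 := h.1

theorem Real.mul {g g' : X} {f f' : ℕ → ℕ} (h : Real g f) (h' : Real g' f') :
    Real (g * g') fun z => f (f' z) := by
  obtain ⟨m, hm⟩ := h
  obtain ⟨m', hm'⟩ := h'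
  refine ⟨(stA 0).mul_mem m m', fun z => ?_⟩
  show (rB (⟨g, m⟩ * ⟨g', m'⟩) z : ℕ) = f (f' z)
  rw [map_mul, Perm.mul_apply, hm, hm']

theorem Real.one : Real 1 fun z => z :=
  ⟨(stA 0).one_mem, fun z => by
    show (rB 1 z : ℕ) = z
    rw [map_one]; rfl⟩

theorem Real.pow {g : X} {f : ℕ → ℕ} (h : Real g f) : ∀ m : ℕ, Real (g ^ m) fun z => iterPt f m z
  | 0 => by simpa [iterPt] using Real.one
  | m + 1 => by
    have h2 := h.mul (h.pow m)
    rw [← pow_succ'] at h2
    obtain ⟨p, hp⟩ := h2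
    refine ⟨p, fun z => (hp z).trans ?_⟩
    show f (iterPt f m z) = forceNat (iterPt f m z) f
    rw [forceNat_eq]

theorem Real.congr {g : X} {f f' : ℕ → ℕ} (h : Real g f) (e : ∀ z : Fin 100, f z = f' z) : Real g f' := by
  obtain ⟨p, hp⟩ := h
  exact ⟨p, fun z => (hp z).trans (e z)⟩

theorem Real.eq {g g' : X} {f f' : ℕ → ℕ} (h : Real g f) (h' : Real g' f')
    (e : ∀ z ∈ baseB, f z = f' z) : g = g' := by
  obtain ⟨m, hm⟩ := h
  obtain ⟨m', hm'⟩ := h'
  set p : stA 0 := ⟨g', m'⟩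
  set q : stA 0 := ⟨g, m⟩
  have hb : rB (p⁻¹ * q) = 1 := by
    refine (levels_sound (n := 100) (T := bTab) lvB 0 levelsB_ok (fun i _ => by simp [tb_eq])).2 _
      ⟨rB_aut _, fun x hx => absurd hx (by simp [tb_eq])⟩ fun p' hp' x hx => ?_
    have hxB : (x : ℕ) ∈ baseB := by rw [baseB_eq, List.mem_map]; exact ⟨p', hp', hx.symm⟩
    have e' : rB q x = rB p x := Fin.ext (by rw [hm, hm']; exact e _ hxB)
    rw [map_mul, map_inv, Perm.mul_apply, e']
    exact (rB p).symm_apply_apply x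
  have := rB_inj (hb.trans (map_one rB).symm)
  exact congrArg Subtype.val (inv_mul_eq_one.1 this).symm

theorem Real.gen {k : ℕ} (hk : k < 5) : Real (sX (show k < 6 by omega)) (gB k) :=
  ⟨sX_stA hk, rB_gen hk⟩

theorem Real.entry {k : ℕ} (hk : k < D.ns) (h0 : apA k 0 = 0) : ∃ g : X, Real g (apB k) := by
  obtain ⟨g, -, hg, -⟩ := el_X hk
  have hm : g ∈ stA 0 := Fin.ext ((hg 0).trans h0)
  refine ⟨g, hm, fun z => ?_⟩
  have h := hg (Bpt z)
  rw [rB_spec ⟨g, hm⟩ z] at h
  exact (Bpt_facts _).2.1.symm.trans (congrArg bIdx h)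

theorem stA_le_of_gens {L : Subgroup X} (h : ∀ k (hk : k < 5), sX (show k < 6 by omega) ∈ L) :
    stA 0 ≤ L := fun _ hg =>
  stA_induction (P := fun g => g ∈ L) L.one_mem (fun _ _ => L.mul_mem) h hg

theorem words_mem {L : Subgroup X} {f : ℕ → ℕ → ℕ} {len : ℕ} {ws : List (List ℕ)}
    (hw : wordsOk f len ws = true) (hf : ∀ c < len, ∃ g ∈ L, Real g (f c)) : stA 0 ≤ L := by
  refine stA_le_of_gens fun k hk => ?_
  have h := allFrom_spec hw k (Nat.zero_le _) (by omega)
  simp only [Bool.and_eq_true, List.all_eq_true] at h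
  have key : ∀ w : List ℕ, (∀ c ∈ w, c < len) → ∃ g ∈ L, Real g (evalW' f w) := by
    intro w
    induction w with
    | nil => exact fun _ => ⟨1, L.one_mem, Real.one⟩
    | cons c w ih =>
      intro hc
      obtain ⟨g, hg, hr⟩ := ih fun b hb => hc b (List.mem_cons_of_mem _ hb)
      obtain ⟨g', hg', hr'⟩ := hf c (hc c List.mem_cons_self)
      refine ⟨g' * g, L.mul_mem hg' hg, (hr'.mul hr).congr fun z => ?_⟩
      show f c (evalW' f w z) = forceNat (evalW' f w z) fun y => f c y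
      rw [forceNat_eq]
  obtain ⟨g, hg, hr⟩ := key _ fun c hc => Nat.le_of_ble_eq_true (h.1 c hc)
  have e := hr.eq (Real.gen hk) fun z hz => Nat.eq_of_beq_eq_true (h.2 z hz)
  rw [← e]; exact hg

end Cfsg.Agent.H11.Suz
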