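import Cfsg.Agent.H11.Suz.Core
import Cfsg.Agent.H14.LeechStabs

/-!
A base of a graph with the numbers of candidates at each step bounds its group of automorphisms.
-/

set_option autoImplicit false

open Equiv Cfsg.Agent.H16 Cfsg.Agent.H36

namespace Cfsg.Agent.H11.Suz

theorem tb_eq (m i : ℕ) : tb m i = m.testBit i := by
  unfold tb
  rw [Nat.testBit_eq_decide_div_mod_eq]
  change Nat.beq ((m >>> i) &&& 1) 1 = _
  rw [Nat.and_one_is_mod, Nat.shiftRight_eq_div_pow]
  rcases Nat.mod_two_eq_zero_or_one (m / 2 ^ i) with h | h <;> rw [h] <;> rfl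

theorem brec_eq {b c : Bool} (h : (Bool.rec (!b) b c : Bool) = true) : b = c := by
  cases b <;> cases c <;> simp_all

theorem tb_lor_shift (v F x : ℕ) :
    tb (Nat.lor (Nat.shiftLeft 1 v) F) x = (decide (v = x) || tb F x) := by
  rw [tb_eq, tb_eq, show Nat.lor (Nat.shiftLeft 1 v) F = (1 <<< v) ||| F from rfl, Nat.testBit_or,
    Nat.one_shiftLeft, Nat.testBit_two_pow]

theorem tb_maskOf (w v : ℕ) : ∀ (n y : ℕ),
    tb (maskOf w v n) y = true ↔ ∃ j < n, bitField v (Nat.mul j w) w = y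
  | 0, y => by simp [maskOf, tb_eq]
  | n + 1, y => by
    have e : maskOf w v (n + 1) = forceNat (maskOf w v n) fun ih =>
        Nat.lor (Nat.shiftLeft 1 (bitField v (Nat.mul n w) w)) ih := rfl
    rw [e, forceNat_eq, tb_lor_shift, Bool.or_eq_true, decide_eq_true_eq, tb_maskOf w v n y]
    constructor
    · rintro (h | ⟨j, hj, h⟩)
      · exact ⟨n, Nat.lt_succ_self n, h⟩
      · exact ⟨j, hj.trans (Nat.lt_succ_self n), h⟩
    · rintro ⟨j, hj, h⟩
      rcases Nat.lt_succ_iff_lt_or_eq.1 hj with hj | rfl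
      · exact Or.inr ⟨j, hj, h⟩
      · exact Or.inl h

variable {n : ℕ} {T : NTree}

/-- The automorphisms of a graph given by masks. -/
def autOf (n : ℕ) (T : NTree) : Subgroup (Perm (Fin n)) where
  carrier := {g | ∀ x y : Fin n, tb (T.get (g x : Fin n)) (g y : Fin n) = tb (T.get x) y}
  one_mem' := fun _ _ => rfl
  mul_mem' := fun {a b} ha hb x y => (ha (b x) (b y)).trans (hb x y)
  inv_mem' := fun {a} ha x y => by
    have h := ha (a⁻¹ x) (a⁻¹ y)
    simpa using h.symm

/-- The automorphisms fixing the points of a mask. -/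
def fixOf (n : ℕ) (T : NTree) (F : ℕ) : Subgroup (Perm (Fin n)) where
  carrier := {g | g ∈ autOf n T ∧ ∀ x : Fin n, tb F x = true → g x = x}
  one_mem' := ⟨one_mem _, fun _ _ => rfl⟩
  mul_mem' := fun {a b} ha hb => ⟨mul_mem ha.1 hb.1, fun x hx => by
    rw [Perm.mul_apply, hb.2 x hx, ha.2 x hx]⟩
  inv_mem' := fun {a} ha => ⟨inv_mem ha.1, fun x hx => by
    rw [Perm.inv_eq_iff_eq]; exact (ha.2 x hx).symm⟩

/-- Equal signatures over the fixed points. -/
theorem sig_eq {F : ℕ} (hF : ∀ i, n ≤ i → tb F i = false) {g : Perm (Fin n)} (hg : g ∈ fixOf n T F)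
    (r : Fin n) : Nat.land (Nat.xor (T.get (g r : Fin n)) (T.get r)) F = 0 := by
  refine Nat.zero_of_testBit_eq_false fun i => ?_
  show ((T.get (g r : Fin n) ^^^ T.get r) &&& F).testBit i = false
  rw [Nat.testBit_and, Nat.testBit_xor, ← tb_eq, ← tb_eq, ← tb_eq]
  cases hb : tb F i
  · simp
  · have hi : i < n := by
      by_contra hcon
      rw [hF i (not_lt.1 hcon)] at hb; exact Bool.noConfusion hb
    have h := hg.1 r ⟨i, hi⟩
    rw [hg.2 ⟨i, hi⟩ hb] at h
    rw [show tb (T.get (g r : Fin n)) i = tb (T.get r) i from h]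
    simp

theorem propStep_sound (f : ℕ → Bool) : ∀ (L : List ℕ) (F : ℕ), propStep n T f L F = true →
    (∀ i, n ≤ i → tb F i = false) →
    ∃ F', f F' = true ∧ (∀ i, n ≤ i → tb F' i = false) ∧ fixOf n T F ≤ fixOf n T F'
  | [], F, h, hF => ⟨F, h, hF, le_rfl⟩
  | r :: L, F, h, hF => by
    have h' : (Nat.blt r n && forceNat (T.get r) (fun m =>
        allFrom (fun z => Nat.beq z r || tb F z || !(Nat.beq (Nat.land (Nat.xor (T.get z) m) F) 0)) n 0) &&
      forceNat (Nat.lor (Nat.shiftLeft 1 r) F) fun F' => propStep n T f L F') = true := h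
    simp only [forceNat_eq, Bool.and_eq_true, Nat.blt_eq] at h'
    obtain ⟨⟨hr, hall⟩, hrest⟩ := h'
    have hF' : ∀ i, n ≤ i → tb (Nat.lor (Nat.shiftLeft 1 r) F) i = false := fun i hi => by
      rw [tb_lor_shift, hF i hi]; simp; omega
    obtain ⟨F', hf, hb, hle⟩ := propStep_sound f L _ hrest hF'
    have hstep : fixOf n T F ≤ fixOf n T (Nat.lor (Nat.shiftLeft 1 r) F) := by
      intro g hg
      refine ⟨hg.1, fun x hx => ?_⟩
      rw [tb_lor_shift, Bool.or_eq_true, decide_eq_true_eq] at hx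
      rcases hx with hx | hx
      · obtain rfl : x = ⟨r, hr⟩ := Fin.ext hx.symm
        have hz := allFrom_spec hall (g ⟨r, hr⟩) (Nat.zero_le _) (by simp)
        simp only [Bool.or_eq_true, Bool.not_eq_true'] at hz
        rcases hz with (e | e) | e
        · exact Fin.ext (Nat.eq_of_beq_eq_true e)
        · exact g.injective (hg.2 _ e)
        · exfalso
          have h0 := sig_eq hF hg ⟨r, hr⟩
          simp only at h0
          rw [h0] at e
          exact Bool.noConfusion e
      · exact hg.2 x hx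
    exact ⟨F', hf, hb, hstep.trans hle⟩

theorem levels_sound : ∀ (L : List (ℕ × ℕ × List ℕ)) (F : ℕ), levelsOk n T L F = true →
    (∀ i, n ≤ i → tb F i = false) →
    Nat.card (fixOf n T F) ≤ (L.map fun p => p.2.1).prod ∧
      ∀ g ∈ fixOf n T F, (∀ p ∈ L, ∀ x : Fin n, (x : ℕ) = p.1 → g x = x) → g = 1
  | [], F, h, hF => by
    have hall : F = Nat.sub (Nat.pow 2 n) 1 := Nat.eq_of_beq_eq_true h
    have hone : ∀ g ∈ fixOf n T F, g = 1 := fun g hg => Equiv.ext fun x => hg.2 x (by
      rw [tb_eq, hall, show Nat.sub (Nat.pow 2 n) 1 = 2 ^ n - 1 from rfl, Nat.testBit_two_pow_sub_one]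
      exact decide_eq_true x.2)
    refine ⟨?_, fun g hg _ => hone g hg⟩
    have : fixOf n T F = ⊥ := (Subgroup.eq_bot_iff_forall _).2 hone
    simp [this]
  | p :: L, F, h, hF => by
    have h' : (Nat.blt p.1 n && !(tb F p.1) && forceNat (T.get p.1) (fun m =>
        Nat.beq (countFrom (fun z => !(tb F z) && Nat.beq (Nat.land (Nat.xor (T.get z) m) F) 0) n 0) p.2.1) &&
      forceNat (Nat.lor (Nat.shiftLeft 1 p.1) F) fun F' =>
        propStep n T (fun G => forceNat G fun G => levelsOk n T L G) p.2.2 F') = true := h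
    simp only [forceNat_eq, Bool.and_eq_true, Bool.not_eq_true', Nat.blt_eq] at h'
    obtain ⟨⟨⟨hb, hnF⟩, hc⟩, hrest⟩ := h'
    set b : Fin n := ⟨p.1, hb⟩
    have hbF : ¬ tb F b = true := by rw [show ((b : Fin n) : ℕ) = p.1 from rfl, hnF]; simp
    have hF1 : ∀ i, n ≤ i → tb (Nat.lor (Nat.shiftLeft 1 p.1) F) i = false := fun i hi => by
      rw [tb_lor_shift, hF i hi]; simp; omega
    obtain ⟨F2, hl, hF2, hle⟩ := propStep_sound _ p.2.2 _ hrest hF1
    obtain ⟨hcard, hrig⟩ := levels_sound L F2 hl hF2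
    have hst1 : fixOf n T F ⊓ MulAction.stabilizer (Perm (Fin n)) b ≤
        fixOf n T (Nat.lor (Nat.shiftLeft 1 p.1) F) := by
      intro g hg
      refine ⟨hg.1.1, fun x hx => ?_⟩
      rw [tb_lor_shift, Bool.or_eq_true, decide_eq_true_eq] at hx
      rcases hx with hx | hx
      · obtain rfl : x = b := Fin.ext hx.symm
        exact hg.2
      · exact hg.1.2 x hx
    have hst : fixOf n T F ⊓ MulAction.stabilizer (Perm (Fin n)) b ≤ fixOf n T F2 := hst1.trans hle
    refine ⟨?_, fun g hg hfix => hrig g (hst ⟨hg, hfix p List.mem_cons_self b rfl⟩)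
      fun q hq => hfix q (List.mem_cons_of_mem _ hq)⟩
    have hmul := H14.card_stab_mul (fixOf n T F) b _ rfl
    rw [List.map_cons, List.prod_cons, ← hmul]
    refine Nat.mul_le_mul ?_ ((Subgroup.card_le_of_le hst).trans hcard)
    rw [← Nat.eq_of_beq_eq_true hc, countFrom_spec]
    have hsub : (fun x : Fin n => (x : ℕ)) '' MulAction.orbit (fixOf n T F) b ⊆
        ↑((Finset.Ico 0 (0 + n)).filter fun z =>
          (!(tb F z) && Nat.beq (Nat.land (Nat.xor (T.get z) (T.get p.1)) F) 0) = true) := by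
      rintro _ ⟨_, ⟨g, rfl⟩, rfl⟩
      rw [Finset.mem_coe, Finset.mem_filter, Finset.mem_Ico, Bool.and_eq_true, Bool.not_eq_true']
      refine ⟨⟨Nat.zero_le _, by simp⟩, ?_, ?_⟩
      · rw [Bool.eq_false_iff]
        intro hh
        have : (g : Perm (Fin n)) b = b := (g : Perm (Fin n)).injective (g.2.2 _ hh)
        exact hbF (by rw [← this]; exact hh)
      · have h0 : Nat.land (Nat.xor (T.get ((g : Perm (Fin n)) b : Fin n)) (T.get p.1)) F = 0 := sig_eq hF g.2 b
        show Nat.beq (Nat.land (Nat.xor (T.get ((g : Perm (Fin n)) b : Fin n)) (T.get p.1)) F) 0 = true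
        rw [h0]; rfl
    have h1 := Set.ncard_le_ncard hsub (Finset.finite_toSet _)
    rwa [Set.ncard_image_of_injective _ Fin.val_injective, Set.ncard_coe_finset] at h1

end Cfsg.Agent.H11.Suz
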