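import Cfsg.Agent.H11.Suz.Model
import Cfsg.Agent.H11.Suz.Rigid
import Cfsg.Agent.H11.Suz.Checks2
import Cfsg.Agent.H11.Suz.Checks3

/-!
The actions of the stabiliser on the 416 and on the 1365 points.
-/

set_option autoImplicit false

open Equiv Cfsg.Agent.H16 Cfsg.Agent.H36

namespace Cfsg.Agent.H11.Suz

open Data

/-- One of the 416 points. -/
noncomputable def Apt (i : Fin 416) : Fin 1782 :=
  ⟨ap416 i, by
    have h := ap416_ok i i.2
    simp only [aOk, forceNat_eq, Bool.and_eq_true, Nat.blt_eq] at h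
    exact h.1.1⟩

/-- One of the 1365 points. -/
noncomputable def Cpt (c : Fin 1365) : Fin 1782 :=
  ⟨cp c, by
    have h := cp_ok c c.2
    simp only [cOk, forceNat_eq, Bool.and_eq_true, Nat.blt_eq] at h
    exact h.1.1⟩

theorem Apt_facts (i : Fin 416) : idx (Apt i) = i ∧ kind (Apt i) = 1 := by
  have h := ap416_ok i i.2
  simp only [aOk, forceNat_eq, Bool.and_eq_true, Nat.blt_eq] at h
  exact ⟨Nat.eq_of_beq_eq_true h.1.2, Nat.eq_of_beq_eq_true h.2⟩

theorem Cpt_facts (c : Fin 1365) : idx (Cpt c) = c ∧ kind (Cpt c) = 2 := by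
  have h := cp_ok c c.2
  simp only [cOk, forceNat_eq, Bool.and_eq_true, Nat.blt_eq] at h
  exact ⟨Nat.eq_of_beq_eq_true h.1.2, Nat.eq_of_beq_eq_true h.2⟩

theorem Apt_inj : Function.Injective Apt := fun i j e => Fin.ext (by
  have h := (Apt_facts i).1
  rw [e, (Apt_facts j).1] at h
  exact h.symm)

theorem Cpt_inj : Function.Injective Cpt := fun i j e => Fin.ext (by
  have h := (Cpt_facts i).1
  rw [e, (Cpt_facts j).1] at h
  exact h.symm)

theorem pt_cases (x : Fin 1782) :
    (x = 0 ∧ kind x = 0) ∨ (∃ i, x = Apt i) ∨ ∃ c, x = Cpt c := by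
  have h := pt_ok x x.2
  simp only [ptOk, Bool.and_eq_true] at h
  have h2 := h.1
  cases h0 : Nat.beq (x : ℕ) 0
  · rw [h0, cond_false] at h2
    cases hk : Nat.beq (kind x) 1
    · rw [hk, cond_false] at h2
      simp only [Bool.and_eq_true, Nat.blt_eq] at h2
      exact Or.inr (Or.inr ⟨⟨idx x, h2.1.2⟩, Fin.ext (Nat.eq_of_beq_eq_true h2.2).symm⟩)
    · rw [hk, cond_true] at h2
      simp only [Bool.and_eq_true, Nat.blt_eq] at h2
      exact Or.inr (Or.inl ⟨⟨idx x, h2.1⟩, Fin.ext (Nat.eq_of_beq_eq_true h2.2).symm⟩)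
  · rw [h0, cond_true] at h2
    exact Or.inl ⟨Fin.ext (Nat.eq_of_beq_eq_true h0), Nat.eq_of_beq_eq_true h2⟩

theorem kind_sigma {k : ℕ} (hk : k < 6) (x : Fin 1782) : kind (sigma k x : Fin 1782) = kind x := by
  have h := pt_ok x x.2
  simp only [ptOk, Bool.and_eq_true] at h
  rw [sigma_ap hk]
  exact Nat.eq_of_beq_eq_true (allFrom_spec h.2 k (Nat.zero_le _) (by omega))

theorem kind_X {g : Perm (Fin 1782)} (hg : g ∈ X) : ∀ x : Fin 1782, kind (g x : Fin 1782) = kind x := by
  induction hg using Subgroup.closure_induction with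
  | mem p hp =>
    obtain ⟨⟨k, hk⟩, rfl⟩ := hp
    exact kind_sigma hk
  | one => intro x; rfl
  | mul a b _ _ ha hb => intro x; rw [Perm.mul_apply, ha, hb]
  | inv a _ ha =>
    intro x
    have h := ha (a⁻¹ x)
    rw [show a (a⁻¹ x) = x from a.apply_symm_apply x] at h
    exact h.symm

theorem imgA_exists (g : X) (i : Fin 416) : ∃ j, (g : Perm (Fin 1782)) (Apt i) = Apt j := by
  have h := kind_X g.2 (Apt i)
  rw [(Apt_facts i).2] at h
  rcases pt_cases ((g : Perm (Fin 1782)) (Apt i)) with ⟨-, e⟩ | e | ⟨c, e⟩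
  · omega
  · exact e
  · rw [e, (Cpt_facts c).2] at h; omega

theorem imgC_exists (g : X) (c : Fin 1365) : ∃ c', (g : Perm (Fin 1782)) (Cpt c) = Cpt c' := by
  have h := kind_X g.2 (Cpt c)
  rw [(Cpt_facts c).2] at h
  rcases pt_cases ((g : Perm (Fin 1782)) (Cpt c)) with ⟨-, e⟩ | ⟨i, e⟩ | e
  · omega
  · rw [e, (Apt_facts i).2] at h; omega
  · exact e

/-- The image among the 416. -/
noncomputable def imgA (g : X) (i : Fin 416) : Fin 416 := (imgA_exists g i).choose

theorem imgA_spec (g : X) (i : Fin 416) : (g : Perm (Fin 1782)) (Apt i) = Apt (imgA g i) :=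
  (imgA_exists g i).choose_spec

/-- The image among the 1365. -/
noncomputable def imgC (g : X) (c : Fin 1365) : Fin 1365 := (imgC_exists g c).choose

theorem imgC_spec (g : X) (c : Fin 1365) : (g : Perm (Fin 1782)) (Cpt c) = Cpt (imgC g c) :=
  (imgC_exists g c).choose_spec

theorem imgA_mul (g h : X) (i : Fin 416) : imgA (g * h) i = imgA g (imgA h i) :=
  Apt_inj (by rw [← imgA_spec, ← imgA_spec, ← imgA_spec]; rfl)

theorem imgA_one (i : Fin 416) : imgA 1 i = i := Apt_inj (by rw [← imgA_spec]; rfl)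

theorem imgC_mul (g h : X) (i : Fin 1365) : imgC (g * h) i = imgC g (imgC h i) :=
  Cpt_inj (by rw [← imgC_spec, ← imgC_spec, ← imgC_spec]; rfl)

theorem imgC_one (i : Fin 1365) : imgC 1 i = i := Cpt_inj (by rw [← imgC_spec]; rfl)

/-- The action on the 416 points. -/
noncomputable def rA : X →* Perm (Fin 416) where
  toFun g :=
    { toFun := imgA g
      invFun := imgA g⁻¹
      left_inv := fun i => by rw [← imgA_mul, inv_mul_cancel, imgA_one]
      right_inv := fun i => by rw [← imgA_mul, mul_inv_cancel, imgA_one] }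
  map_one' := Equiv.ext imgA_one
  map_mul' g h := Equiv.ext (imgA_mul g h)

/-- The action on the 1365 points. -/
noncomputable def rC : X →* Perm (Fin 1365) where
  toFun g :=
    { toFun := imgC g
      invFun := imgC g⁻¹
      left_inv := fun i => by rw [← imgC_mul, inv_mul_cancel, imgC_one]
      right_inv := fun i => by rw [← imgC_mul, mul_inv_cancel, imgC_one] }
  map_one' := Equiv.ext imgC_one
  map_mul' g h := Equiv.ext (imgC_mul g h)

theorem rA_spec (g : X) (i : Fin 416) : (g : Perm (Fin 1782)) (Apt i) = Apt (rA g i) := imgA_spec g i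

theorem rC_spec (g : X) (c : Fin 1365) : (g : Perm (Fin 1782)) (Cpt c) = Cpt (rC g c) := imgC_spec g c

/-- A generator in the stabiliser. -/
noncomputable def sX {k : ℕ} (hk : k < 6) : X := ⟨sigma k, sigma_mem hk⟩

theorem sX_sq {k : ℕ} (hk : k < 6) : sX hk * sX hk = 1 := Subtype.ext (sigma_sq k)

theorem rA_sX {k : ℕ} (hk : k < 6) (i : Fin 416) :
    (rA (sX hk) i : ℕ) = idx (D.ap (getN genTab k) (ap416 i)) := by
  rw [show ap416 i = ((Apt i : Fin 1782) : ℕ) from rfl, ← sigma_ap hk (Apt i),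
    show sigma k (Apt i) = Apt (rA (sX hk) i) from rA_spec (sX hk) i, (Apt_facts _).1]

theorem rC_sX {k : ℕ} (hk : k < 6) (c : Fin 1365) :
    (rC (sX hk) c : ℕ) = idx (D.ap (getN genTab k) (cp c)) := by
  rw [show cp c = ((Cpt c : Fin 1782) : ℕ) from rfl, ← sigma_ap hk (Cpt c),
    show sigma k (Cpt c) = Cpt (rC (sX hk) c) from rC_spec (sX hk) c, (Cpt_facts _).1]

theorem X_induction {P : X → Prop} (h1 : P 1) (hmul : ∀ a b, P a → P b → P (a * b))
    (hgen : ∀ (k : ℕ) (hk : k < 6), P (sX hk)) (g : X) : P g := by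
  obtain ⟨g, hg⟩ := g
  induction hg using Subgroup.closure_induction'' with
  | mem p hp =>
    obtain ⟨⟨k, hk⟩, rfl⟩ := hp
    exact hgen k hk
  | inv_mem p hp =>
    obtain ⟨⟨k, hk⟩, rfl⟩ := hp
    have e : ((sX (k := k) hk)⁻¹ : X) = sX hk := inv_eq_of_mul_eq_one_right (sX_sq hk)
    have := hgen k hk
    rw [← e] at this
    exact this
  | one => exact h1
  | mul a b ha hb iha ihb => exact hmul ⟨a, ha⟩ ⟨b, hb⟩ iha ihb

theorem el_X {k : ℕ} (hk : k < D.ns) : ∃ g : X,
    (∀ x : Fin 1782, (((g : Perm (Fin 1782)) x : Fin 1782) : ℕ) = apE k x) ∧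
    (∀ i : Fin 416, (rA g i : ℕ) = apA k i) ∧ ∀ c : Fin 1365, (rC g c : ℕ) = apC k c := by
  obtain ⟨g, hg, hr⟩ := el_exists hk
  refine ⟨⟨g, hg⟩, hr, fun i => ?_, fun c => ?_⟩
  · have h := hr (Apt i)
    rw [show g (Apt i) = Apt (rA ⟨g, hg⟩ i) from rA_spec ⟨g, hg⟩ i] at h
    exact (Apt_facts _).1.symm.trans (congrArg idx h)
  · have h := hr (Cpt c)
    rw [show g (Cpt c) = Cpt (rC ⟨g, hg⟩ c) from rC_spec ⟨g, hg⟩ c] at h
    exact (Cpt_facts _).1.symm.trans (congrArg idx h)

theorem transA : ∀ i : Fin 416, ∃ g : X, rA g 0 = i := by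
  intro i
  obtain ⟨i, hi⟩ := i
  induction i using Nat.strong_induction_on with
  | _ i ih =>
    have h := apar_ok i hi
    simp only [aParOk, forceNat_eq, Bool.or_eq_true, Bool.and_eq_true, Nat.blt_eq] at h
    rcases h with h | ⟨⟨hp, hk⟩, he⟩
    · exact ⟨1, by rw [map_one]; exact Fin.ext (Nat.eq_of_beq_eq_true h).symm⟩
    · obtain ⟨g, hg⟩ := ih _ hp (lt_trans hp hi)
      refine ⟨sX hk * g, Fin.ext ?_⟩
      rw [map_mul, Perm.mul_apply, hg, rA_sX]
      exact Nat.eq_of_beq_eq_true he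

/-- The chosen point among the 1365. -/
noncomputable def c0F : Fin 1365 := ⟨c0, by decide⟩

theorem transC : ∀ c : Fin 1365, ∃ g : X, rC g c0F = c := by
  suffices ∀ r, ∀ c : Fin 1365, bitField (cPar.get 32 c) 16 16 = r → ∃ g : X, rC g c0F = c from
    fun c => this _ c rfl
  intro r
  induction r using Nat.strong_induction_on with
  | _ r ih =>
    intro c hc
    have h := cpar_ok c c.2
    simp only [cParOk, forceNat_eq, Bool.or_eq_true, Bool.and_eq_true, Nat.blt_eq] at h
    rcases h with h | ⟨⟨⟨hp, hk⟩, hr⟩, he⟩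
    · exact ⟨1, by rw [map_one]; exact Fin.ext (Nat.eq_of_beq_eq_true h).symm⟩
    · obtain ⟨g, hg⟩ := ih _ (hc ▸ hr) ⟨_, hp⟩ rfl
      refine ⟨sX hk * g, Fin.ext ?_⟩
      rw [map_mul, Perm.mul_apply, hg, rC_sX]
      exact Nat.eq_of_beq_eq_true he

theorem rA_inj : Function.Injective rA := by
  rw [← MonoidHom.ker_eq_bot_iff]
  refine (X_simple.eq_bot_or_eq_top_of_normal _ inferInstance).resolve_right fun h => ?_
  obtain ⟨g, hg⟩ := transA 1
  have : g ∈ rA.ker := h ▸ Subgroup.mem_top g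
  rw [MonoidHom.mem_ker.1 this] at hg
  exact absurd hg (by decide)

theorem mem_row (i j : Fin 416) (h : adjA i j = true) :
    ∃ t < 100, bitField (aMem.get i) (Nat.mul t 9) 9 = j := by
  have h' := adjA_ok i i.2
  simp only [adjAOk, forceNat_eq, Bool.and_eq_true] at h'
  rw [adjA, ← Nat.eq_of_beq_eq_true h'.1.1.1] at h
  exact (tb_maskOf 9 _ 100 j).1 h

theorem rA_aut (g : X) : rA g ∈ autOf 416 aTab := by
  refine X_induction (P := fun g => rA g ∈ autOf 416 aTab) (by rw [map_one]; exact one_mem _)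
    (fun a b ha hb => by rw [map_mul]; exact mul_mem ha hb) (fun k hk => ?_) g
  have key : ∀ i j : Fin 416, adjA i j = true → adjA (rA (sX hk) i : Fin 416) (rA (sX hk) j : Fin 416) = true := by
    intro i j h
    obtain ⟨t, ht, e⟩ := mem_row i j h
    have h' := adjA_ok i i.2
    simp only [adjAOk, forceNat_eq, Bool.and_eq_true] at h'
    have := allFrom_spec (allFrom_spec h'.2 k (Nat.zero_le _) (by omega)) t (Nat.zero_le _) (by omega)
    rw [e] at this
    rw [adjA, rA_sX, rA_sX]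
    exact this
  intro i j
  show adjA _ _ = adjA i j
  rw [Bool.eq_iff_iff]
  refine ⟨fun h => ?_, key i j⟩
  have h2 := key _ _ h
  rwa [← Perm.mul_apply, ← Perm.mul_apply, ← map_mul, sX_sq, map_one, Perm.one_apply, Perm.one_apply] at h2

theorem adjA_rA (g : X) (i j : Fin 416) : adjA (rA g i : Fin 416) (rA g j : Fin 416) = adjA i j :=
  rA_aut g i j

theorem adjA_irrefl (i : Fin 416) : adjA i i = false := by
  have h' := adjA_ok i i.2
  simp only [adjAOk, forceNat_eq, Bool.and_eq_true, Bool.not_eq_true'] at h'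
  exact h'.1.1.2

theorem inS_rA (g : X) (c : Fin 1365) (i : Fin 416) :
    inS (rC g c : Fin 1365) (rA g i : Fin 416) = inS c i := by
  revert c i
  refine X_induction (P := fun g => ∀ (c : Fin 1365) (i : Fin 416),
    inS (rC g c : Fin 1365) (rA g i : Fin 416) = inS c i) (fun c i => by simp)
    (fun a b ha hb c i => by rw [map_mul, map_mul, Perm.mul_apply, Perm.mul_apply, ha, hb])
    (fun k hk => ?_) g
  have key : ∀ (c : Fin 1365) (i : Fin 416), inS c i = true →
      inS (rC (sX hk) c : Fin 1365) (rA (sX hk) i : Fin 416) = true := by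
    intro c i h
    have h' := inS_ok c c.2
    simp only [inSOk, forceNat_eq, Bool.and_eq_true] at h'
    rw [inS, ← Nat.eq_of_beq_eq_true h'.1.1.1] at h
    obtain ⟨t, ht, e⟩ := (tb_maskOf 9 _ 96 i).1 h
    have := allFrom_spec (allFrom_spec h'.2 k (Nat.zero_le _) (by omega)) t (Nat.zero_le _) (by omega)
    rw [e] at this
    rw [inS, rA_sX, rC_sX]
    exact this
  intro c i
  rw [Bool.eq_iff_iff]
  refine ⟨fun h => ?_, key c i⟩
  have h2 := key _ _ h
  rwa [← Perm.mul_apply, ← Perm.mul_apply, ← map_mul, ← map_mul, sX_sq, map_one, map_one, Perm.one_apply,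
    Perm.one_apply] at h2

theorem sc_lt (c : Fin 1365) (y : ℕ) (hy : 416 ≤ y) : tb (scTab.get c) y = false := by
  rw [Bool.eq_false_iff]
  intro h
  have h' := inS_ok c c.2
  simp only [inSOk, forceNat_eq, Bool.and_eq_true] at h'
  rw [← Nat.eq_of_beq_eq_true h'.1.1.1] at h
  obtain ⟨t, ht, e⟩ := (tb_maskOf 9 _ 96 y).1 h
  have h2 := allFrom_spec h'.1.2 t (Nat.zero_le _) (by omega)
  rw [Nat.blt_eq, e] at h2
  omega

theorem inS_inj {c c' : Fin 1365} (h : ∀ i : Fin 416, inS c i = inS c' i) : c = c' := by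
  have heq : scTab.get c = scTab.get c' := Nat.eq_of_testBit_eq fun y => by
    rw [← tb_eq, ← tb_eq]
    by_cases hy : y < 416
    · exact h ⟨y, hy⟩
    · rw [sc_lt c y (not_lt.1 hy), sc_lt c' y (not_lt.1 hy)]
  have hlt : ∀ a b : ℕ, a < b → b < 1365 → scTab.get a < scTab.get b := by
    intro a b hab hb
    induction b with
    | zero => omega
    | succ b ih =>
      have h' := inS_ok (b + 1) hb
      simp only [inSOk, forceNat_eq, Bool.and_eq_true, Bool.or_eq_true, Nat.blt_eq] at h'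
      have hstep : scTab.get b < scTab.get (b + 1) := by
        rcases h'.1.1.2 with e | e
        · exact absurd (Nat.eq_of_beq_eq_true e) (by omega)
        · exact e
      rcases Nat.lt_succ_iff_lt_or_eq.1 hab with e | e
      · exact (ih e (by omega)).trans hstep
      · rw [e]; exact hstep
  rcases lt_trichotomy (c : ℕ) c' with e | e | e
  · exact absurd heq (hlt _ _ e c'.2).ne
  · exact Fin.ext e
  · exact absurd heq (hlt _ _ e c.2).ne'

theorem adjA_symm (i j : Fin 416) : adjA i j = adjA j i := by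
  have key : ∀ i j : Fin 416, adjA i j = true → adjA j i = true := by
    intro i j h
    obtain ⟨t, ht, e⟩ := mem_row i j h
    have h' := adjA_ok i i.2
    simp only [adjAOk, forceNat_eq, Bool.and_eq_true] at h'
    have h2 := allFrom_spec h'.1.2 t (Nat.zero_le _) (by omega)
    rw [e, Bool.and_eq_true] at h2
    exact h2.2
  rw [Bool.eq_iff_iff]
  exact ⟨key i j, key j i⟩

end Cfsg.Agent.H11.Suz
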