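import Cfsg.Agent.H11.Suz.Checks1
import Cfsg.Agent.H16.SuzOrder
import Cfsg.Agent.H16.G24Iso
import Cfsg.Agent.H47.G24J2.G24
import Cfsg.Agent.H50.G2Four.Rep

/-!
The Suzuki group on 1782 points and the stabiliser of a point.
-/

set_option autoImplicit false

open Equiv Cfsg.Spor Cfsg.Agent.H16 Cfsg.Agent.H36 Cfsg.Agent.H36.AutEngine

namespace Cfsg.Agent.H11.Suz

open Data

/-- A generator as a permutation. -/
noncomputable def sigma (k : ℕ) : Perm (Fin 1782) := SuzH.valid.perm k

theorem sigma_apply {k : ℕ} (hk : k < 7) (x : Fin 1782) :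
    ((sigma k x : Fin 1782) : ℕ) = SuzH.data.act x k := by
  have h7 : k < SuzH.data.ng := Nat.lt_of_lt_of_eq hk rfl
  rw [sigma, EnumData.Valid.perm, dif_pos h7]
  rfl

theorem sigma_ap {k : ℕ} (hk : k < 6) (x : Fin 1782) :
    ((sigma k x : Fin 1782) : ℕ) = D.ap (getN genTab k) x := by
  rw [sigma_apply (by omega)]
  exact (Nat.eq_of_beq_eq_true (allFrom_spec (gen_ok x x.2) k (Nat.zero_le _) (by omega))).symm

theorem sigma_sq (k : ℕ) : sigma k * sigma k = 1 := SuzH.valid.perm_sq k

/-- The six generators. -/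
noncomputable def gen6 (c : Fin D.gens.length) : Perm (Fin D.n) := sigma c

theorem gen_rep (c : Fin D.gens.length) : D.Rep (gen6 c) (getN D.gens c) := fun x => sigma_ap c.2 x

/-- The stabiliser of the point `0`, as the group of six generators. -/
noncomputable def X : Subgroup (Perm (Fin 1782)) := Subgroup.closure (Set.range gen6)

theorem el_exists {k : ℕ} (hk : k < D.ns) : ∃ g ∈ X, ∀ x : Fin 1782, ((g x : Fin 1782) : ℕ) = apE k x :=
  Ctx.el_mem (D := D) gen6 gen_rep (fun k hk => slp_ok k hk) k hk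

theorem sigma_mem {k : ℕ} (hk : k < 6) : sigma k ∈ X := Subgroup.subset_closure ⟨⟨k, hk⟩, rfl⟩

/-- The whole group. -/
noncomputable def M : Subgroup (Perm (Fin 1782)) := (SuzH.theModel.rho).range

/-- The group of the presentation onto the permutation group. -/
noncomputable def rhoS : Spor.Suz →* Perm (Fin 1782) := SuzH.theModel.rho

theorem rhoS_val (k : ℕ) : rhoS (SuzH.val k) = sigma k := SuzH.theModel.rho_gen k

theorem rhoS_inj : Function.Injective rhoS := SuzOrder.card_and_faithful.2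

theorem X_eq : X = SuzH.sub.map rhoS := by
  rw [← G24Iso.letterSub_eq_sub, X]
  show _ = (Subgroup.closure _).map rhoS
  rw [MonoidHom.map_closure]
  congr 1
  ext p
  constructor
  · rintro ⟨⟨k, hk⟩, rfl⟩
    refine ⟨SuzH.val k, ⟨k, ?_, rfl⟩, rhoS_val k⟩
    have hk6 : k < 6 := hk
    interval_cases k <;> decide
  · rintro ⟨_, ⟨k, hk, rfl⟩, rfl⟩
    have hk6 : k < 6 := by fin_cases hk <;> norm_num
    exact ⟨⟨k, hk6⟩, (rhoS_val k).symm⟩

theorem card_M : Nat.card M = 448345497600 := by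
  rw [← SuzOrder.card_and_faithful.1]
  exact (Nat.card_congr (MonoidHom.ofInjective rhoS_inj).toEquiv).symm

theorem M_iso : Nonempty (↥M ≃* Spor.Suz) := ⟨(MonoidHom.ofInjective rhoS_inj).symm⟩

theorem X_le_M : X ≤ M := by
  rw [X_eq]; exact Subgroup.map_le_range _ _

theorem M_trans (x : Fin 1782) : ∃ m ∈ M, m 0 = x := by
  obtain ⟨g, hg⟩ := SuzH.theModel.reach x x.2
  exact ⟨rhoS g, ⟨g, rfl⟩, hg⟩

theorem X_fix {g : Perm (Fin 1782)} (hg : g ∈ X) : g 0 = 0 := by
  rw [X_eq] at hg
  obtain ⟨s, hs, rfl⟩ := hg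
  exact SuzH.theModel.rho_fix hs

theorem X_iso : Nonempty (↥X ≃* Cfsg.Lie.chevG2.group H16.F4) := by
  obtain ⟨e⟩ := G24Iso.sub_equiv
  exact ⟨((MulEquiv.subgroupCongr X_eq).trans
    (Subgroup.equivMapOfInjective SuzH.sub rhoS rhoS_inj).symm).trans e⟩

theorem card_X : Nat.card X = 251596800 := by
  obtain ⟨e⟩ := X_iso
  exact (Nat.card_congr e.toEquiv).trans G24Iso.card_chev

theorem X_iso' (K : Type) [Field K] [Fintype K] (hK : Fintype.card K = 4) :
    Nonempty (↥X ≃* Cfsg.Lie.chevG2.group K) := by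
  obtain ⟨e⟩ := X_iso
  obtain ⟨e1⟩ := Cfsg.Agent.H50.G2Four.nonempty_equiv hK
  obtain ⟨e2⟩ := Cfsg.Agent.H50.G2Four.nonempty_equiv (F := H16.F4) H16.F4.card_eq
  exact ⟨e.trans (e2.trans e1.symm)⟩

/-- The presented `G₂(4)` onto the stabiliser. -/
noncomputable def homG : G24U.Grp →* Perm (Fin 1782) := rhoS.comp G24Iso.subHom

theorem homG_range : homG.range = X := by
  rw [homG, MonoidHom.range_comp, G24Iso.subHom_range, G24Iso.letterSub_eq_sub, X_eq]

theorem card_grpG : Nat.card G24U.Grp = 251596800 := G24Order.card_and_faithful.1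

theorem homG_inj : Function.Injective homG := by
  haveI : Finite G24U.Grp := Nat.finite_of_card_ne_zero (by rw [card_grpG]; norm_num)
  have hb : Function.Bijective homG.rangeRestrict :=
    (Nat.bijective_iff_surjective_and_card _).mpr
      ⟨homG.rangeRestrict_surjective, by rw [card_grpG, homG_range, card_X]⟩
  exact fun x y h => hb.1 (Subtype.ext h)

theorem X_simple : IsSimpleGroup X := by
  have := G24Order.isSimple
  exact ((MonoidHom.ofInjective homG_inj).trans (MulEquiv.subgroupCongr homG_range)).symm.isSimpleGroup_congr.2 this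

/-- The Hall-Janko subgroup. -/
noncomputable def J : Subgroup (Perm (Fin 1782)) := Subgroup.closure {p | ∃ k < 5, sigma k = p}

theorem homG_gen (x : G24U.Gen) : homG (PresentedGroup.of x) = sigma (G24U.gens.idxOf x) := by
  rw [homG, MonoidHom.comp_apply, G24Iso.subHom, PresentedGroup.toGroup.of, G24Iso.subFun, rhoS_val]

theorem J_eq : J = (homG.comp H47.G24J2.phi).range := by
  rw [MonoidHom.range_eq_map, ← PresentedGroup.closure_range_of, MonoidHom.map_closure, J]
  congr 1
  ext p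
  constructor
  · rintro ⟨k, hk, rfl⟩
    refine ⟨_, ⟨J2U.gens.getD k .a, rfl⟩, ?_⟩
    rw [MonoidHom.comp_apply, H47.G24J2.phi, PresentedGroup.toGroup.of, H47.G24J2.phiFun, homG_gen]
    interval_cases k <;> rfl
  · rintro ⟨_, ⟨x, rfl⟩, rfl⟩
    rw [MonoidHom.comp_apply, H47.G24J2.phi, PresentedGroup.toGroup.of, H47.G24J2.phiFun, homG_gen]
    refine ⟨_, ?_, rfl⟩
    cases x <;> decide

theorem homJ_inj : Function.Injective (homG.comp H47.G24J2.phi) :=
  homG_inj.comp H47.G24J2.phi_injective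

theorem card_J : Nat.card J = 604800 := by
  rw [J_eq, ← J2Order.card_and_faithful.1]
  exact (Nat.card_congr (MonoidHom.ofInjective homJ_inj).toEquiv).symm

theorem J_simple : IsSimpleGroup J := by
  have := J2Order.isSimple
  exact ((MonoidHom.ofInjective homJ_inj).trans (MulEquiv.subgroupCongr J_eq.symm)).symm.isSimpleGroup_congr.2 this

theorem J_le : J ≤ X := by
  rw [J, Subgroup.closure_le]
  rintro _ ⟨k, hk, rfl⟩
  exact sigma_mem (by omega)

end Cfsg.Agent.H11.Suz
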