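import Cfsg.Agent.H11.Suz.Conj
import Cfsg.Agent.H11.Suz.CUniq
import Cfsg.Agent.H11.Suz.AutBound

/-!
The graph of a transitive group on 1782 points with suborbits 1, 416, 1365, and its identification
around a point.
-/

set_option autoImplicit false

open Equiv Cfsg.Agent.H16 Cfsg.Agent.H36

namespace Cfsg.Agent.H11.Suz

open Data

universe u

variable {Ω : Type u} [Fintype Ω] [DecidableEq Ω]

theorem fin_count (n : ℕ) (p : ℕ → Bool) :
    countFrom p n 0 = (Finset.univ.filter fun j : Fin n => p j = true).card := by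
  rw [countFrom_spec]
  refine (Finset.card_bij (fun (y : Fin n) _ => (y : ℕ)) (fun y hy => ?_)
    (fun a _ c _ e => Fin.val_injective e) ?_).symm
  · simpa using hy
  · intro m hm
    obtain ⟨h1, h2⟩ := Finset.mem_filter.1 hm
    exact ⟨⟨m, by simpa using h1⟩, by simpa using h2, rfl⟩

theorem merge_root {T : PArr} {roots ks : List ℕ} {f : ℕ → ℕ → ℕ} {n : ℕ}
    (h : ∀ x, x < n → mergeOk T roots ks f n x = true) (P : ℕ → Prop)
    (inv : ∀ k, k < ks.length → ∀ p, p < n → f (getN ks k) p < n → (P (f (getN ks k) p) ↔ P p)) :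
    ∀ x, x < n → lab T x < roots.length ∧ (P x ↔ P (getN roots (lab T x))) := by
  suffices ∀ r, ∀ x, x < n → bitField (T.get 28 x) 17 11 = r →
      lab T x < roots.length ∧ (P x ↔ P (getN roots (lab T x))) from fun x hx => this _ x hx rfl
  intro r
  induction r using Nat.strong_induction_on with
  | _ r ih =>
    intro x hx hr
    have h' := h x hx
    simp only [mergeOk, forceNat_eq, Bool.and_eq_true, Bool.or_eq_true, Nat.blt_eq] at h'
    obtain ⟨hl, h'⟩ := h'
    refine ⟨hl, ?_⟩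
    rcases h' with e | ⟨⟨⟨⟨hp, hk⟩, hlab⟩, hrank⟩, he⟩
    · have ex : x = getN roots (lab T x) := Nat.eq_of_beq_eq_true e
      exact iff_of_eq (congrArg P ex)
    · have hlab' : lab T _ = lab T x := Nat.eq_of_beq_eq_true hlab
      have hp' := (ih _ (hr ▸ hrank) _ hp rfl).2
      rw [hlab'] at hp'
      rw [← hp']
      have e := Nat.eq_of_beq_eq_true he
      conv_lhs => rw [← e]
      exact inv _ hk _ hp (by rw [e]; exact hx)

theorem five_fix : ([0, 1, 2, 3, 4] : List ℕ).all (fun k => Nat.blt k D.ns && Nat.beq (apA k 0) 0) = true := by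
  decide +kernel

/-- The hypotheses. -/
structure Hyp (G : Subgroup (Perm Ω)) (a : Ω) where
  card : Fintype.card Ω = 1782
  trans : ∀ x, ∃ g ∈ G, g a = x
  e : MulAction.stabilizer G a ≃* X
  b : Ω
  c : Ω
  hb : (MulAction.orbit (MulAction.stabilizer G a) b).ncard = 416
  hc : (MulAction.orbit (MulAction.stabilizer G a) c).ncard = 1365

namespace Hyp

open scoped Classical

variable {G : Subgroup (Perm Ω)} {a : Ω} (H : Hyp G a)

/-- The first suborbit. -/
def Ob : Set Ω := MulAction.orbit (MulAction.stabilizer G a) H.b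

/-- The second suborbit. -/
def Oc : Set Ω := MulAction.orbit (MulAction.stabilizer G a) H.c

/-- An element of the stabiliser on the points. -/
def act (x : MulAction.stabilizer G a) : Perm Ω := ((x : G) : Perm Ω)

omit [Fintype Ω] [DecidableEq Ω] in
theorem act_a (x : MulAction.stabilizer G a) : act x a = a := x.2

omit [Fintype Ω] [DecidableEq Ω] in
theorem act_mul (x y : MulAction.stabilizer G a) (z : Ω) : act (x * y) z = act x (act y z) := rfl

omit [Fintype Ω] [DecidableEq Ω] in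
theorem act_inv_apply (x : MulAction.stabilizer G a) (z : Ω) : act x⁻¹ (act x z) = z := by
  rw [← act_mul, inv_mul_cancel]; rfl

theorem mem_Ob_act (x : MulAction.stabilizer G a) (z : Ω) : act x z ∈ H.Ob ↔ z ∈ H.Ob := by
  constructor
  · intro h
    have := MulAction.mem_orbit_of_mem_orbit x⁻¹ h
    change act x⁻¹ (act x z) ∈ H.Ob at this
    rwa [act_inv_apply] at this
  · exact fun h => MulAction.mem_orbit_of_mem_orbit x h

theorem mem_Oc_act (x : MulAction.stabilizer G a) (z : Ω) : act x z ∈ H.Oc ↔ z ∈ H.Oc := by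
  constructor
  · intro h
    have := MulAction.mem_orbit_of_mem_orbit x⁻¹ h
    change act x⁻¹ (act x z) ∈ H.Oc at this
    rwa [act_inv_apply] at this
  · exact fun h => MulAction.mem_orbit_of_mem_orbit x h

theorem orbit_a : MulAction.orbit (MulAction.stabilizer G a) a = {a} := by
  ext z
  exact ⟨fun ⟨x, hx⟩ => hx ▸ x.2, fun h => by rw [h]; exact MulAction.mem_orbit_self a⟩

theorem a_not_Ob : a ∉ H.Ob := fun h => by
  have h1 := H.hb
  rw [← MulAction.orbit_eq_iff.2 h, orbit_a] at h1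
  simp at h1

theorem a_not_Oc : a ∉ H.Oc := fun h => by
  have h1 := H.hc
  rw [← MulAction.orbit_eq_iff.2 h, orbit_a] at h1
  simp at h1

theorem not_both {z : Ω} (h1 : z ∈ H.Ob) (h2 : z ∈ H.Oc) : False := by
  have e1 : MulAction.orbit (MulAction.stabilizer G a) z = H.Ob := MulAction.orbit_eq_iff.2 h1
  have e2 : MulAction.orbit (MulAction.stabilizer G a) z = H.Oc := MulAction.orbit_eq_iff.2 h2
  have := (congrArg Set.ncard (e1.symm.trans e2))
  rw [show H.Ob.ncard = 416 from H.hb, show H.Oc.ncard = 1365 from H.hc] at this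
  omega

theorem cover (z : Ω) : z = a ∨ z ∈ H.Ob ∨ z ∈ H.Oc := by
  by_contra hcon
  push Not at hcon
  have hd : Disjoint H.Ob H.Oc := Set.disjoint_left.2 fun y h1 h2 => H.not_both h1 h2
  have hsub : insert a (insert z (H.Ob ∪ H.Oc)) ⊆ (Set.univ : Set Ω) := Set.subset_univ _
  have := Set.ncard_le_ncard hsub
  rw [Set.ncard_insert_of_notMem, Set.ncard_insert_of_notMem (by simp [hcon.2.1, hcon.2.2]),
    Set.ncard_union_eq hd, Set.ncard_univ, Nat.card_eq_fintype_card, H.card,
    show H.Ob.ncard = 416 from H.hb, show H.Oc.ncard = 1365 from H.hc] at this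
  · omega
  · simp [Ne.symm hcon.1, H.a_not_Ob, H.a_not_Oc]

/-- An element taking `a` to `x`. -/
noncomputable def t (x : Ω) : Perm Ω := (H.trans x).choose

theorem t_mem (x : Ω) : H.t x ∈ G := (H.trans x).choose_spec.1

theorem t_a (x : Ω) : H.t x a = x := (H.trans x).choose_spec.2

/-- Adjacency. -/
def Adj (x y : Ω) : Prop := (H.t x)⁻¹ y ∈ H.Ob

theorem adj_map {g : Perm Ω} (hg : g ∈ G) (x y : Ω) : H.Adj (g x) (g y) ↔ H.Adj x y := by
  have hk : (⟨(H.t (g x))⁻¹ * g * H.t x, G.mul_mem (G.mul_mem (G.inv_mem (H.t_mem _)) hg) (H.t_mem _)⟩ : G)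
      ∈ MulAction.stabilizer G a := by
    show (H.t (g x))⁻¹ (g (H.t x a)) = a
    rw [H.t_a, Perm.inv_eq_iff_eq, H.t_a]
  have e := H.mem_Ob_act ⟨_, hk⟩ ((H.t x)⁻¹ y)
  change (H.t (g x))⁻¹ (g (H.t x ((H.t x)⁻¹ y))) ∈ H.Ob ↔ _ at e
  rwa [show H.t x ((H.t x)⁻¹ y) = y from (H.t x).apply_symm_apply y] at e

theorem adj_act (x : MulAction.stabilizer G a) (y z : Ω) : H.Adj (act x y) (act x z) ↔ H.Adj y z :=
  H.adj_map (x : G).2 y z

theorem adj_a (y : Ω) : H.Adj a y ↔ y ∈ H.Ob := by
  have hk : (⟨(H.t a)⁻¹, G.inv_mem (H.t_mem a)⟩ : G) ∈ MulAction.stabilizer G a := by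
    show (H.t a)⁻¹ a = a
    rw [Perm.inv_eq_iff_eq, H.t_a]
  exact H.mem_Ob_act ⟨_, hk⟩ y

theorem adj_irrefl (x : Ω) : ¬ H.Adj x x := fun h => H.a_not_Ob (by
  have e : (H.t x)⁻¹ x = a := by rw [Perm.inv_eq_iff_eq, H.t_a]
  exact Eq.mp (congrArg (· ∈ H.Ob) e) h)

omit [DecidableEq Ω] in
theorem card_filter_perm (g : Perm Ω) (P : Ω → Prop) [DecidablePred P] :
    (Finset.univ.filter fun y => P (g y)).card = (Finset.univ.filter P).card :=
  Finset.card_equiv g (by simp)

theorem card_Ob : (Finset.univ.filter fun y => y ∈ H.Ob).card = 416 := by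
  rw [← H.hb, ← Set.ncard_coe_finset]
  exact congrArg Set.ncard (by ext; simp only [Finset.coe_filter, Finset.mem_univ, true_and]; rfl)

theorem card_Oc : (Finset.univ.filter fun y => y ∈ H.Oc).card = 1365 := by
  rw [← H.hc, ← Set.ncard_coe_finset]
  exact congrArg Set.ncard (by ext; simp only [Finset.coe_filter, Finset.mem_univ, true_and]; rfl)

theorem degree (x : Ω) : (Finset.univ.filter fun y => H.Adj x y).card = 416 := by
  rw [← H.card_Ob, ← card_filter_perm (H.t x) fun y => H.Adj x y]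
  refine congrArg Finset.card (Finset.filter_congr fun y _ => ?_)
  have h := H.adj_map (H.t_mem x) a y
  rw [H.t_a] at h
  rw [h, H.adj_a]

theorem in_degree (y : Ω) : (Finset.univ.filter fun x => H.Adj x y).card = 416 := by
  have key : ∀ y, (Finset.univ.filter fun x => H.Adj x y).card = (Finset.univ.filter fun x => H.Adj x a).card := by
    intro y
    rw [← card_filter_perm (H.t y) fun x => H.Adj x y]
    refine congrArg Finset.card (Finset.filter_congr fun x _ => ?_)
    have h := H.adj_map (H.t_mem y) x a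
    rwa [H.t_a] at h
  have e : (∑ x : Ω, (Finset.univ.filter fun y => H.Adj x y).card) =
      ∑ y : Ω, (Finset.univ.filter fun x => H.Adj x y).card := by
    simp only [Finset.card_filter]
    exact Finset.sum_comm
  simp only [H.degree, key, Finset.sum_const, Finset.card_univ, H.card, smul_eq_mul] at e
  rw [key]; omega

theorem adj_a' (y : Ω) : H.Adj y a ↔ y ∈ H.Ob := by
  set T := Finset.univ.filter fun x => H.Adj x a with hT
  have hinv : ∀ (g : MulAction.stabilizer G a) (x : Ω), H.Adj x a → H.Adj (act g x) a := fun g x h => by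
    have := (H.adj_act g x a).2 h
    rwa [act_a] at this
  have hsub : T ⊆ Finset.univ.filter fun y => y ∈ H.Ob := by
    intro x hx
    simp only [hT, Finset.mem_filter, Finset.mem_univ, true_and] at hx ⊢
    rcases H.cover x with rfl | h | h
    · exact absurd hx (H.adj_irrefl _)
    · exact h
    · exfalso
      have hsup : (Finset.univ.filter fun y => y ∈ H.Oc) ⊆ T := by
        intro w hw
        simp only [hT, Finset.mem_filter, Finset.mem_univ, true_and] at hw ⊢
        obtain ⟨g, rfl⟩ : w ∈ MulAction.orbit (MulAction.stabilizer G a) x := by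
          rw [MulAction.orbit_eq_iff.2 h]; exact hw
        exact hinv g x hx
      have := Finset.card_le_card hsup
      rw [H.card_Oc, H.in_degree a] at this
      omega
  have heq := Finset.eq_of_subset_of_card_le hsub (by rw [H.card_Ob, H.in_degree a])
  have := Finset.ext_iff.1 heq y
  simpa [hT] using this

theorem adj_symm (x y : Ω) : H.Adj x y ↔ H.Adj y x := by
  obtain ⟨z, rfl⟩ : ∃ z, H.t x z = y := ⟨_, (H.t x).apply_symm_apply y⟩
  have h1 := H.adj_map (H.t_mem x) a z
  have h2 := H.adj_map (H.t_mem x) z a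
  rw [H.t_a] at h1 h2
  rw [h1, h2, H.adj_a, H.adj_a']

/-- A labelling of the first suborbit compatible with the model. -/
structure Frame where
  ι : Fin 416 → Ω
  inj : Function.Injective ι
  range : ∀ z, z ∈ H.Ob ↔ ∃ j, ι j = z
  lift : ∀ (g : X) (j : Fin 416), act (H.e.symm g) (ι j) = ι (rA g j)

theorem card_stab_pt {n : ℕ} {z : Ω} (hz : (MulAction.orbit (MulAction.stabilizer G a) z).ncard = n)
    (hn : 0 < n) {m : ℕ} (hm : n * m = 251596800) :
    Nat.card ((MulAction.stabilizer (MulAction.stabilizer G a) z).map H.e.toMonoidHom) = m := by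
  rw [Subgroup.card_map_of_injective H.e.injective]
  have h := H14.card_stab_mul' (G := MulAction.stabilizer G a) z _ rfl
  rw [hz, Nat.card_congr H.e.toEquiv, card_X, ← hm] at h
  exact Nat.eq_of_mul_eq_mul_left hn h

theorem mem_stab_pt (z : Ω) (g : X) :
    g ∈ (MulAction.stabilizer (MulAction.stabilizer G a) z).map H.e.toMonoidHom ↔ act (H.e.symm g) z = z :=
  ⟨fun ⟨x, hx, e⟩ => by rw [← e]; simpa using (show act x z = z from hx),
    fun h => ⟨H.e.symm g, h, by simp⟩⟩

theorem exists_frame : Nonempty H.Frame := by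
  obtain ⟨i0, hi0⟩ := exists_fixedA (H.card_stab_pt (z := H.b) H.hb (by norm_num) (m := 604800) (by norm_num))
  have hfix : ∀ g : X, act (H.e.symm g) H.b = H.b ↔ rA g i0 = i0 := fun g => by
    rw [← H.mem_stab_pt, hi0, mem_stA]
  have htg : ∀ j, ∃ g : X, rA g i0 = j := fun j => by
    obtain ⟨g, hg⟩ := transA j
    obtain ⟨g0, hg0⟩ := transA i0
    exact ⟨g * g0⁻¹, by rw [map_mul, map_inv, Perm.mul_apply, Perm.inv_eq_iff_eq.2 hg0.symm, hg]⟩
  choose tg htg using htg
  have hspec : ∀ g : X, act (H.e.symm g) H.b = act (H.e.symm (tg (rA g i0))) H.b := fun g => by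
    have h := (hfix ((tg (rA g i0))⁻¹ * g)).2 (by
      rw [map_mul, map_inv, Perm.mul_apply, Perm.inv_eq_iff_eq, htg])
    conv_rhs => rw [← h, ← act_mul, ← map_mul, mul_inv_cancel_left]
  refine ⟨⟨fun j => act (H.e.symm (tg j)) H.b, fun j j' h => ?_, fun z => ⟨?_, ?_⟩, fun g j => ?_⟩⟩
  · have h' := (hfix ((tg j')⁻¹ * tg j)).1 (by
      rw [map_mul, act_mul]
      simp only at h
      rw [h, map_inv]
      exact act_inv_apply _ _)
    rw [map_mul, map_inv, Perm.mul_apply, htg, Perm.inv_eq_iff_eq, htg] at h'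
    exact h'
  · rintro ⟨x, rfl⟩
    refine ⟨rA (H.e x) i0, ?_⟩
    show act (H.e.symm (tg (rA (H.e x) i0))) H.b = act x H.b
    rw [← hspec, MulEquiv.symm_apply_apply]
  · rintro ⟨j, rfl⟩
    exact ⟨_, rfl⟩
  · show act (H.e.symm g) (act (H.e.symm (tg j)) H.b) = act (H.e.symm (tg (rA g j))) H.b
    rw [← act_mul, ← map_mul, hspec (g * tg j), map_mul, Perm.mul_apply, htg]

variable {H}

theorem Frame.mem (F : H.Frame) (j : Fin 416) : F.ι j ∈ H.Ob := (F.range _).2 ⟨j, rfl⟩

theorem Frame.split_card (F : H.Frame) (P : Ω → Prop) [DecidablePred P] :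
    (Finset.univ.filter P).card = (if P a then 1 else 0) +
      (Finset.univ.filter fun j => P (F.ι j)).card +
      (Finset.univ.filter fun z => z ∈ H.Oc ∧ P z).card := by
  have e : Finset.univ.filter P = (Finset.univ.filter fun z => z = a ∧ P z) ∪
      ((Finset.univ.filter fun j => P (F.ι j)).image F.ι) ∪ (Finset.univ.filter fun z => z ∈ H.Oc ∧ P z) := by
    ext z
    simp only [Finset.mem_filter, Finset.mem_univ, true_and, Finset.mem_union, Finset.mem_image]
    constructor
    · intro h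
      rcases H.cover z with e | e | e
      · exact Or.inl (Or.inl ⟨e, h⟩)
      · obtain ⟨j, rfl⟩ := (F.range z).1 e
        exact Or.inl (Or.inr ⟨j, h, rfl⟩)
      · exact Or.inr ⟨e, h⟩
    · rintro ((⟨-, h⟩ | ⟨j, h, rfl⟩) | ⟨-, h⟩) <;> exact h
  rw [e, Finset.card_union_of_disjoint, Finset.card_union_of_disjoint, Finset.card_image_of_injective _ F.inj]
  · congr 2
    split_ifs with h
    · rw [show (Finset.univ.filter fun z => z = a ∧ P z) = {a} by ext z; simp; rintro rfl; exact h]; rfl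
    · rw [Finset.card_eq_zero, Finset.filter_eq_empty_iff]
      rintro z - ⟨rfl, hz⟩; exact h hz
  · rw [Finset.disjoint_left]
    intro z h1 h2
    simp only [Finset.mem_filter, Finset.mem_univ, true_and, Finset.mem_image] at h1 h2
    obtain ⟨j, -, rfl⟩ := h2
    exact H.a_not_Ob (Eq.mp (congrArg (· ∈ H.Ob) h1.1) (F.mem j))
  · rw [Finset.disjoint_left]
    intro z h1 h2
    simp only [Finset.mem_filter, Finset.mem_univ, true_and, Finset.mem_image, Finset.mem_union] at h1 h2
    rcases h1 with ⟨rfl, -⟩ | ⟨j, -, rfl⟩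
    · exact H.a_not_Oc h2.1
    · exact H.not_both (F.mem j) h2.1

theorem Frame.adj_lift (F : H.Frame) (g : X) (u v : Fin 416) :
    H.Adj (F.ι (rA g u)) (F.ι (rA g v)) ↔ H.Adj (F.ι u) (F.ι v) := by
  rw [← F.lift g u, ← F.lift g v, H.adj_act]

theorem Frame.by_label (F : H.Frame) (j : Fin 416) (hj : j ≠ 0) :
    (lab merge5 j = 1 ∧ (H.Adj (F.ι 0) (F.ι j) ↔ H.Adj (F.ι 0) (F.ι 1))) ∨
      (lab merge5 j = 2 ∧ (H.Adj (F.ι 0) (F.ι j) ↔ H.Adj (F.ι 0) (F.ι ⟨38, by norm_num⟩))) := by
  let P : ℕ → Prop := fun x => ∃ h : x < 416, H.Adj (F.ι 0) (F.ι ⟨x, h⟩)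
  have inv : ∀ k, k < [0, 1, 2, 3, 4].length → ∀ p, p < 416 → apA (getN [0, 1, 2, 3, 4] k) p < 416 →
      (P (apA (getN [0, 1, 2, 3, 4] k) p) ↔ P p) := by
    intro k hk p hp hp'
    have h := five_fix
    rw [List.all_eq_true] at h
    have h' := h (getN [0, 1, 2, 3, 4] k) (getN_mem _ hk)
    simp only [Bool.and_eq_true, Nat.blt_eq] at h'
    obtain ⟨g, -, hg, -⟩ := el_X h'.1
    have h0 : rA g 0 = 0 := Fin.ext ((hg 0).trans (Nat.eq_of_beq_eq_true h'.2))
    have hpp : rA g ⟨p, hp⟩ = ⟨_, hp'⟩ := Fin.ext (hg ⟨p, hp⟩)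
    have := F.adj_lift g 0 ⟨p, hp⟩
    rw [h0, hpp] at this
    exact ⟨fun ⟨_, e⟩ => ⟨hp, this.1 e⟩, fun ⟨_, e⟩ => ⟨hp', this.2 e⟩⟩
  obtain ⟨hl, hiff⟩ := merge_root merge5_ok P inv j j.2
  have hs := allFrom_spec shape0 j (Nat.zero_le _) (by omega)
  simp only [Bool.and_eq_true] at hs
  have h0 : lab merge5 j ≠ 0 := fun e => by
    have := brec_eq hs.2
    rw [e] at this
    exact hj (Fin.ext (Nat.eq_of_beq_eq_true this.symm))
  have hP : ∀ (x : ℕ) (h : x < 416), P x ↔ H.Adj (F.ι 0) (F.ι ⟨x, h⟩) := fun x h =>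
    ⟨fun ⟨_, e⟩ => e, fun e => ⟨h, e⟩⟩
  have hj' : P j ↔ H.Adj (F.ι 0) (F.ι j) := hP _ j.2
  simp only [List.length_cons, List.length_nil] at hl
  interval_cases hL : lab merge5 j
  · exact absurd rfl h0
  · refine Or.inl ⟨rfl, hj'.symm.trans (hiff.trans ?_)⟩
    exact hP 1 (by norm_num)
  · refine Or.inr ⟨rfl, hj'.symm.trans (hiff.trans ?_)⟩
    exact hP 38 (by norm_num)

theorem Frame.deg_A (F : H.Frame) (u : Fin 416) :
    (Finset.univ.filter fun v => H.Adj (F.ι u) (F.ι v)).card =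
      (Finset.univ.filter fun v => H.Adj (F.ι 0) (F.ι v)).card := by
  obtain ⟨g, hg⟩ := transA u
  refine (Finset.card_equiv (rA g) fun v => ?_).symm
  simp only [Finset.mem_filter, Finset.mem_univ, true_and]
  rw [← hg, F.adj_lift]

theorem Frame.deg_C (F : H.Frame) (u : Fin 416) :
    (Finset.univ.filter fun z => z ∈ H.Oc ∧ H.Adj (F.ι u) z).card +
      (Finset.univ.filter fun v => H.Adj (F.ι 0) (F.ι v)).card = 415 := by
  have h := F.split_card fun z => H.Adj (F.ι u) z
  rw [H.degree, if_pos ((H.adj_a' _).2 (F.mem u)), F.deg_A u] at h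
  omega

theorem mu_const (F : H.Frame) {z : Ω} (hz : z ∈ H.Oc) :
    (Finset.univ.filter fun j => H.Adj (F.ι j) z).card =
      (Finset.univ.filter fun j => H.Adj (F.ι j) H.c).card := by
  obtain ⟨x, rfl⟩ := hz
  have key : ∀ w, (Finset.univ.filter fun j => H.Adj (F.ι j) w).card =
      (Finset.univ.filter fun y => y ∈ H.Ob ∧ H.Adj y w).card := fun w => by
    refine Finset.card_bij (fun j _ => F.ι j) (fun j hj => ?_) (fun i _ j _ e => F.inj e) ?_
    · simp only [Finset.mem_filter, Finset.mem_univ, true_and] at hj ⊢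
      exact ⟨F.mem j, hj⟩
    · intro y hy
      simp only [Finset.mem_filter, Finset.mem_univ, true_and] at hy
      obtain ⟨j, rfl⟩ := (F.range y).1 hy.1
      exact ⟨j, by simpa using hy.2, rfl⟩
  rw [key, key]
  refine (Finset.card_equiv (act x) fun y => ?_).symm
  simp only [Finset.mem_filter, Finset.mem_univ, true_and]
  change _ ↔ act x y ∈ H.Ob ∧ H.Adj (act x y) (act x H.c)
  rw [H.mem_Ob_act, H.adj_act]

theorem label_count : ∀ α β : Bool,
    countFrom (fun j => bif Nat.beq (lab merge5 j) 1 then α else Nat.beq (lab merge5 j) 2 && β) 416 0 =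
      bif α then (bif β then 415 else 315) else (bif β then 100 else 0) := by decide +kernel

/-- The neighbours of the chosen point are not pairwise adjacent. -/
theorem not_clique (F : H.Frame) (h : ∀ u v : Fin 416, u ≠ v → H.Adj (F.ι u) (F.ι v)) : False := by
  let cl : Ω → Finset Ω := fun x => Finset.univ.filter fun y => y = x ∨ H.Adj x y
  have hbase : ∀ x z, (x = a ∨ x ∈ H.Ob) → (z = a ∨ z ∈ H.Ob) → x = z ∨ H.Adj x z := by
    rintro x z (rfl | hx) (rfl | hz)
    · exact Or.inl rfl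
    · exact Or.inr ((H.adj_a _).2 hz)
    · exact Or.inr ((H.adj_a' _).2 hx)
    · obtain ⟨u, rfl⟩ := (F.range _).1 hx
      obtain ⟨v, rfl⟩ := (F.range _).1 hz
      by_cases e : u = v
      · exact Or.inl (by rw [e])
      · exact Or.inr (h u v e)
  have htr : ∀ x y z, (y = x ∨ H.Adj x y) → (z = y ∨ H.Adj y z) → (z = x ∨ H.Adj x z) := by
    intro x y z h1 h2
    have back : ∀ w, (w = y ∨ H.Adj y w) → (H.t y)⁻¹ w = a ∨ (H.t y)⁻¹ w ∈ H.Ob := by
      rintro w (rfl | hw)
      · exact Or.inl (by rw [Perm.inv_eq_iff_eq, H.t_a])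
      · exact Or.inr hw
    rcases hbase _ _ (back x (h1.imp Eq.symm fun e => (H.adj_symm x y).1 e)) (back z h2) with e | e
    · exact Or.inl ((H.t y)⁻¹.injective e).symm
    · exact Or.inr ((H.adj_map (G.inv_mem (H.t_mem y)) x z).1 e)
  have hcard : ∀ x, (cl x).card = 417 := by
    intro x
    have e : cl x = insert x (Finset.univ.filter fun y => H.Adj x y) := by
      ext y; simp [cl]
    rw [e, Finset.card_insert_of_notMem (by simp [H.adj_irrefl]), H.degree]
  have hfib : ∀ c ∈ Finset.univ.image cl, (Finset.univ.filter fun y => cl y = c).card = 417 := by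
    intro c hc
    obtain ⟨x, -, rfl⟩ := Finset.mem_image.1 hc
    rw [← hcard x]
    congr 1
    ext y
    simp only [Finset.mem_filter, Finset.mem_univ, true_and, cl]
    constructor
    · intro e
      have : y ∈ Finset.univ.filter fun w => w = y ∨ H.Adj y w := by simp
      rw [e] at this
      simpa using this
    · intro hy
      have hy' : x = y ∨ H.Adj y x := hy.imp Eq.symm fun e => (H.adj_symm x y).1 e
      ext w
      simp only [Finset.mem_filter, Finset.mem_univ, true_and]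
      exact ⟨fun hw => htr x y w hy hw, fun hw => htr y x w hy' hw⟩
  have := Finset.card_eq_sum_card_image cl (Finset.univ : Finset Ω)
  rw [Finset.card_univ, H.card, Finset.sum_congr rfl hfib, Finset.sum_const, smul_eq_mul] at this
  omega

/-- The graph on the first suborbit is the model graph. -/
theorem frame_adj (F : H.Frame) (u v : Fin 416) : H.Adj (F.ι u) (F.ι v) ↔ adjA u v = true := by
  set α : Bool := decide (H.Adj (F.ι 0) (F.ι 1)) with hα
  set β : Bool := decide (H.Adj (F.ι 0) (F.ι ⟨38, by norm_num⟩)) with hβ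
  have h00 : lab merge5 0 = 0 := by decide +kernel
  have h0 : ∀ j : Fin 416, H.Adj (F.ι 0) (F.ι j) ↔
      (bif Nat.beq (lab merge5 j) 1 then α else Nat.beq (lab merge5 j) 2 && β) = true := by
    intro j
    by_cases hj : j = 0
    · subst hj
      rw [show ((0 : Fin 416) : ℕ) = 0 from rfl, h00]
      simp [H.adj_irrefl]
    · rcases F.by_label j hj with ⟨e, hiff⟩ | ⟨e, hiff⟩ <;> rw [e, hiff] <;> simp [hα, hβ]
  set d := (Finset.univ.filter fun v => H.Adj (F.ι 0) (F.ι v)).card with hd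
  have hdval : d = bif α then (bif β then 415 else 315) else (bif β then 100 else 0) := by
    rw [← label_count, fin_count, hd]
    exact congrArg Finset.card (Finset.filter_congr fun j _ => h0 j)
  set m := (Finset.univ.filter fun j => H.Adj (F.ι j) H.c).card with hm
  have hcount : 416 * (415 - d) = 1365 * m := by
    have e : (∑ u : Fin 416, (Finset.univ.filter fun z => z ∈ H.Oc ∧ H.Adj (F.ι u) z).card) =
        ∑ z ∈ Finset.univ.filter (fun z => z ∈ H.Oc), (Finset.univ.filter fun j => H.Adj (F.ι j) z).card := by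
      simp only [Finset.card_filter]
      rw [Finset.sum_comm, Finset.sum_filter]
      refine Finset.sum_congr rfl fun z _ => ?_
      by_cases hz : z ∈ H.Oc <;> simp [hz]
    rw [Finset.sum_congr rfl fun z hz => mu_const F (Finset.mem_filter.1 hz).2, Finset.sum_const,
      H.card_Oc, smul_eq_mul] at e
    rw [← e]
    have : ∀ u : Fin 416, (Finset.univ.filter fun z => z ∈ H.Oc ∧ H.Adj (F.ι u) z).card = 415 - d := fun u => by
      have := F.deg_C u; omega
    simp [this]
  have hαβ : α = false ∧ β = true := by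
    cases hA : α <;> cases hB : β <;> rw [hA, hB] at hdval <;> simp only [cond_true, cond_false] at hdval <;>
      rw [hdval] at hcount
    · omega
    · exact ⟨rfl, rfl⟩
    · omega
    · exfalso
      refine not_clique F fun u v huv => ?_
      obtain ⟨g, hg⟩ := transA u
      obtain ⟨w, rfl⟩ : ∃ w, rA g w = v := ⟨_, (rA g).apply_symm_apply v⟩
      rw [← hg, F.adj_lift, h0]
      have hw : w ≠ 0 := fun e => huv (by rw [e, hg])
      rcases F.by_label w hw with ⟨e, -⟩ | ⟨e, -⟩ <;> simp [e, hA, hB]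
  obtain ⟨g, hg⟩ := transA u
  obtain ⟨w, rfl⟩ : ∃ w, rA g w = v := ⟨_, (rA g).apply_symm_apply v⟩
  have hs := allFrom_spec shape0 w (Nat.zero_le _) (by omega)
  simp only [Bool.and_eq_true] at hs
  rw [← hg, F.adj_lift, h0, adjA_rA, show ((0 : Fin 416) : ℕ) = 0 from rfl, ← brec_eq hs.1.2, hαβ.1, hαβ.2]
  cases h1 : Nat.beq (lab merge5 w) 1
  · simp
  · rw [Nat.eq_of_beq_eq_true h1]; simp

theorem deg_zero (F : H.Frame) : (Finset.univ.filter fun v => H.Adj (F.ι 0) (F.ι v)).card = 100 := by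
  rw [show (100 : ℕ) = bif false then (bif true then 415 else 315) else (bif true then 100 else 0) from rfl,
    ← label_count false true, fin_count]
  refine congrArg Finset.card (Finset.filter_congr fun j _ => ?_)
  have hs := allFrom_spec shape0 j (Nat.zero_le _) (by omega)
  simp only [Bool.and_eq_true] at hs
  rw [frame_adj F, show ((0 : Fin 416) : ℕ) = 0 from rfl, ← brec_eq hs.1.2]
  cases h1 : Nat.beq (lab merge5 j) 1
  · simp
  · rw [Nat.eq_of_beq_eq_true h1]; simp

theorem trace_card (F : H.Frame) {z : Ω} (hz : z ∈ H.Oc) :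
    (Finset.univ.filter fun j => H.Adj (F.ι j) z).card = 96 := by
  rw [mu_const F hz]
  have hu : ∀ u : Fin 416, (Finset.univ.filter fun z => z ∈ H.Oc ∧ H.Adj (F.ι u) z).card = 315 := fun u => by
    have := F.deg_C u
    rw [deg_zero F] at this
    omega
  have e : (∑ u : Fin 416, (Finset.univ.filter fun z => z ∈ H.Oc ∧ H.Adj (F.ι u) z).card) =
      ∑ z ∈ Finset.univ.filter (fun z => z ∈ H.Oc), (Finset.univ.filter fun j => H.Adj (F.ι j) z).card := by
    simp only [Finset.card_filter]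
    rw [Finset.sum_comm, Finset.sum_filter]
    refine Finset.sum_congr rfl fun z _ => ?_
    by_cases hz : z ∈ H.Oc <;> simp [hz]
  rw [Finset.sum_congr rfl fun z hz => mu_const F (Finset.mem_filter.1 hz).2, Finset.sum_const,
    H.card_Oc, smul_eq_mul, Finset.sum_congr rfl fun u _ => hu u, Finset.sum_const, Finset.card_univ,
    Fintype.card_fin, smul_eq_mul] at e
  omega

/-- A set of 416-points invariant under two elements is a union of two classes. -/
theorem inv_classes {T : PArr} {roots ks : List ℕ} (hr : roots.length = 2)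
    (hm : ∀ x, x < 416 → mergeOk T roots ks apA 416 x = true) (S : Fin 416 → Prop)
    (hinv : ∀ k ∈ ks, ∃ h : X, (∀ i : Fin 416, (rA h i : ℕ) = apA k i) ∧ ∀ i, S (rA h i) ↔ S i) :
    ∃ α β : Bool, ∀ x : Fin 416, S x ↔ (bif Nat.beq (lab T x) 0 then α else β) = true := by
  let P : ℕ → Prop := fun x => ∃ h : x < 416, S ⟨x, h⟩
  have inv : ∀ k, k < ks.length → ∀ p, p < 416 → apA (getN ks k) p < 416 → (P (apA (getN ks k) p) ↔ P p) := by
    intro k hk p hp hp'
    obtain ⟨g, hg, hS⟩ := hinv _ (getN_mem _ hk)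
    have hpp : rA g ⟨p, hp⟩ = ⟨_, hp'⟩ := Fin.ext (hg ⟨p, hp⟩)
    have := hS ⟨p, hp⟩
    rw [hpp] at this
    exact ⟨fun ⟨_, e⟩ => ⟨hp, this.1 e⟩, fun ⟨_, e⟩ => ⟨hp', this.2 e⟩⟩
  refine ⟨decide (P (getN roots 0)), decide (P (getN roots 1)), fun x => ?_⟩
  obtain ⟨hl, hiff⟩ := merge_root hm P inv x x.2
  rw [hr] at hl
  have hx : S x ↔ P x := ⟨fun h => ⟨x.2, h⟩, fun ⟨_, h⟩ => h⟩
  rw [hx, hiff]
  interval_cases hL : lab T x <;> simp

theorem cnt_classes (α β : Bool) : ∀ T : PArr, ∀ s t : ℕ, [0, 1].map (labCnt T 416) = [s, t] →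
    (∀ x, x < 416 → lab T x < 2) →
    countFrom (fun x => bif Nat.beq (lab T x) 0 then α else β) 416 0 =
      (bif α then s else 0) + (bif β then t else 0) := by
  intro T s t hst hl
  simp only [List.map_cons, List.map_nil, List.cons.injEq, and_true, labCnt, fin_count] at hst
  obtain ⟨hs, ht⟩ := hst
  rw [fin_count, ← hs, ← ht, Finset.card_filter, Finset.card_filter, Finset.card_filter]
  have key : ∀ x : Fin 416, (if (bif Nat.beq (lab T x) 0 then α else β) = true then 1 else 0) =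
      (bif α then (if Nat.beq (lab T x) 0 = true then 1 else 0) else 0) +
        (bif β then (if Nat.beq (lab T x) 1 = true then 1 else 0) else 0) := fun x => by
    have := hl x x.2
    interval_cases lab T x <;> cases α <;> cases β <;> simp
  rw [Finset.sum_congr rfl fun x _ => key x, Finset.sum_add_distrib]
  cases α <;> cases β <;> simp

/-- The trace of a point of the second suborbit is that of one of the 1365 points. -/
theorem trace_point (F : H.Frame) {z : Ω} (hz : z ∈ H.Oc) :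
    ∃ c : Fin 1365, ∀ j : Fin 416, H.Adj (F.ι j) z ↔ inS c j = true := by
  have horb : (MulAction.orbit (MulAction.stabilizer G a) z).ncard = 1365 := by
    rw [MulAction.orbit_eq_iff.2 (show z ∈ MulAction.orbit (MulAction.stabilizer G a) H.c from hz)]; exact H.hc
  have hY := H.card_stab_pt horb (by norm_num) (m := 184320) (by norm_num)
  set Y := (MulAction.stabilizer (MulAction.stabilizer G a) z).map H.e.toMonoidHom with hYdef
  have hinv : ∀ g ∈ Y, ∀ j, H.Adj (F.ι (rA g j)) z ↔ H.Adj (F.ι j) z := fun g hg j => by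
    have h := (H.mem_stab_pt z g).1 hg
    conv_rhs => rw [← H.adj_act (H.e.symm g), F.lift, h]
  have hconj : ∀ (g : X) (ks : List ℕ),
      (∀ k ∈ ks, ∃ h : X, (∀ i : Fin 416, (rA h i : ℕ) = apA k i) ∧ g * h * g⁻¹ ∈ Y) →
      ∀ k ∈ ks, ∃ h : X, (∀ i : Fin 416, (rA h i : ℕ) = apA k i) ∧
        ∀ i, H.Adj (F.ι (rA g (rA h i))) z ↔ H.Adj (F.ι (rA g i)) z := by
    intro g ks hks k hk
    obtain ⟨h, hA, hh⟩ := hks k hk
    refine ⟨h, hA, fun i => ?_⟩
    have e : rA g (rA h i) = rA (g * h * g⁻¹) (rA g i) := by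
      rw [map_mul, map_mul, map_inv, Perm.mul_apply, Perm.mul_apply]
      exact congrArg (fun y => rA g (rA h y)) ((rA g).symm_apply_apply i).symm
    rw [e]; exact hinv _ hh _
  have hcount : ∀ g : X, (Finset.univ.filter fun i => H.Adj (F.ι (rA g i)) z).card = 96 := fun g => by
    rw [← trace_card F hz]
    exact Finset.card_equiv (rA g) (by simp)
  rcases exists_fixedC hY with ⟨c, hc⟩ | ⟨g, hg⟩
  · obtain ⟨g, hg⟩ := transC c
    have hks : ∀ k ∈ hsL, ∃ h : X, (∀ i : Fin 416, (rA h i : ℕ) = apA k i) ∧ g * h * g⁻¹ ∈ Y := by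
      intro k hk
      have h := hs_ok
      rw [List.all_eq_true] at h
      have h' := h k hk
      simp only [Bool.and_eq_true, Nat.blt_eq] at h'
      obtain ⟨e, -, hA, hC⟩ := el_X h'.1
      have he : rC e c0F = c0F := Fin.ext ((hC c0F).trans (Nat.eq_of_beq_eq_true h'.2))
      refine ⟨e, hA, ?_⟩
      rw [hc, mem_stC, map_mul, map_mul, map_inv, Perm.mul_apply, Perm.mul_apply,
        Perm.inv_eq_iff_eq.2 hg.symm, he, hg]
    obtain ⟨α, β, hS⟩ := inv_classes rfl mergeA_ok (fun i => H.Adj (F.ι (rA g i)) z) (hconj g _ hks)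
    have hl : ∀ x, x < 416 → lab mergeA x < 2 := fun x hx =>
      (merge_root mergeA_ok (fun _ => True) (fun _ _ _ _ _ => Iff.rfl) x hx).1
    have hab := cnt_classes α β mergeA 96 320 cntA_ok hl
    rw [fin_count] at hab
    have h96 := hcount g
    rw [Finset.filter_congr fun i _ => hS i, hab] at h96
    have hA : α = true ∧ β = false := by
      cases α <;> cases β <;> simp at h96 ⊢
    refine ⟨c, fun j => ?_⟩
    obtain ⟨i, rfl⟩ : ∃ i, rA g i = j := ⟨_, (rA g).apply_symm_apply j⟩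
    rw [hS i, hA.1, hA.2, ← hg, inS_rA]
    have hs := allFrom_spec shape0 i (Nat.zero_le _) (by omega)
    simp only [Bool.and_eq_true] at hs
    rw [show inS (c0F : Fin 1365) i = inS c0 i from rfl, ← brec_eq hs.1.1]
    cases Nat.beq (lab mergeA i) 0 <;> rfl
  · exfalso
    obtain ⟨α, β, hS⟩ := inv_classes rfl mergeL_ok (fun i => H.Adj (F.ι (rA g i)) z) (hconj g _ hg)
    have hl : ∀ x, x < 416 → lab mergeL x < 2 := fun x hx =>
      (merge_root mergeL_ok (fun _ => True) (fun _ _ _ _ _ => Iff.rfl) x hx).1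
    have hab := cnt_classes α β mergeL 160 256 cntL_ok hl
    rw [fin_count] at hab
    have h96 := hcount g
    rw [Finset.filter_congr fun i _ => hS i, hab] at h96
    cases α <;> cases β <;> simp at h96

variable (H) in
/-- A complete labelling of the graph. -/
structure Labelling extends H.Frame where
  ζ : Fin 1365 → Ω
  ζ_mem : ∀ c, ζ c ∈ H.Oc
  ζ_trace : ∀ c u, H.Adj (ι u) (ζ c) ↔ inS (c : Fin 1365) (u : Fin 416) = true

theorem exists_labelling : Nonempty H.Labelling := by
  obtain ⟨F⟩ := H.exists_frame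
  obtain ⟨d, hd⟩ := trace_point F (MulAction.mem_orbit_self H.c)
  have : ∀ c : Fin 1365, ∃ w ∈ H.Oc, ∀ u : Fin 416, H.Adj (F.ι u) w ↔ inS c u = true := by
    intro c
    obtain ⟨g1, h1⟩ := transC d
    obtain ⟨g2, h2⟩ := transC c
    have hg : rC (g2 * g1⁻¹) d = c := by
      rw [map_mul, map_inv, Perm.mul_apply, Perm.inv_eq_iff_eq.2 h1.symm, h2]
    refine ⟨act (H.e.symm (g2 * g1⁻¹)) H.c, (H.mem_Oc_act _ _).2 (MulAction.mem_orbit_self H.c), fun u => ?_⟩
    obtain ⟨u, rfl⟩ : ∃ u', rA (g2 * g1⁻¹) u' = u := ⟨_, (rA (g2 * g1⁻¹)).apply_symm_apply u⟩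
    rw [← F.lift, H.adj_act, hd, ← hg, inS_rA]
  choose ζ hζ hζ' using this
  exact ⟨{ toFrame := F, ζ := ζ, ζ_mem := hζ, ζ_trace := hζ' }⟩

namespace Labelling

variable (L : H.Labelling)

theorem ζ_inj : Function.Injective L.ζ := fun c c' e => inS_inj fun u => by
  rw [Bool.eq_iff_iff, ← L.ζ_trace, ← L.ζ_trace, e]

theorem ζ_range {z : Ω} (hz : z ∈ H.Oc) : ∃ c, L.ζ c = z := by
  have e : Finset.univ.image L.ζ = Finset.univ.filter fun z => z ∈ H.Oc := by
    refine Finset.eq_of_subset_of_card_le ?_ ?_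
    · intro w hw
      obtain ⟨c, -, rfl⟩ := Finset.mem_image.1 hw
      simp [L.ζ_mem c]
    · rw [H.card_Oc, Finset.card_image_of_injective _ L.ζ_inj, Finset.card_fin]
  have : z ∈ Finset.univ.image L.ζ := by rw [e]; simp [hz]
  simpa using this

theorem ζ_lift (g : X) (c : Fin 1365) : act (H.e.symm g) (L.ζ c) = L.ζ (rC g c) := by
  obtain ⟨d, hd⟩ := L.ζ_range ((H.mem_Oc_act (H.e.symm g) _).2 (L.ζ_mem c))
  rw [← hd]
  congr 1
  refine inS_inj fun u => ?_
  obtain ⟨u, rfl⟩ : ∃ u', rA g u' = u := ⟨_, (rA g).apply_symm_apply u⟩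
  rw [inS_rA, Bool.eq_iff_iff, ← L.ζ_trace, ← L.ζ_trace, hd, ← L.lift, H.adj_act]

theorem count_C : ∀ α β γ : Bool,
    countFrom (fun x => bif Nat.beq (lab mergeC x) 0 then α else
      bif Nat.beq (lab mergeC x) 1 then β else Nat.beq (lab mergeC x) 2 && γ) 1365 0 = 320 →
    (α = false ∧ β = true ∧ γ = false) := by
  decide +kernel

theorem adj_c0 (c : Fin 1365) : H.Adj (L.ζ c0F) (L.ζ c) ↔ tb d320 c = true := by
  let P : ℕ → Prop := fun x => ∃ h : x < 1365, H.Adj (L.ζ c0F) (L.ζ ⟨x, h⟩)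
  have inv : ∀ k, k < hsL.length → ∀ p, p < 1365 → apC (getN hsL k) p < 1365 →
      (P (apC (getN hsL k) p) ↔ P p) := by
    intro k hk p hp hp'
    have h := hs_ok
    rw [List.all_eq_true] at h
    have h' := h (getN hsL k) (getN_mem _ hk)
    simp only [Bool.and_eq_true, Nat.blt_eq] at h'
    obtain ⟨g, -, -, hC⟩ := el_X h'.1
    have h0 : rC g c0F = c0F := Fin.ext ((hC c0F).trans (Nat.eq_of_beq_eq_true h'.2))
    have hpp : rC g ⟨p, hp⟩ = ⟨_, hp'⟩ := Fin.ext (hC ⟨p, hp⟩)
    have := H.adj_act (H.e.symm g) (L.ζ c0F) (L.ζ ⟨p, hp⟩)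
    rw [L.ζ_lift, L.ζ_lift, h0, hpp] at this
    exact ⟨fun ⟨_, e⟩ => ⟨hp, this.1 e⟩, fun ⟨_, e⟩ => ⟨hp', this.2 e⟩⟩
  set α : Bool := decide (P 0)
  set β : Bool := decide (P 28)
  set γ : Bool := decide (P 389)
  have hall : ∀ x : Fin 1365, H.Adj (L.ζ c0F) (L.ζ x) ↔ (bif Nat.beq (lab mergeC x) 0 then α else
      bif Nat.beq (lab mergeC x) 1 then β else Nat.beq (lab mergeC x) 2 && γ) = true := by
    intro x
    obtain ⟨hl, hiff⟩ := merge_root mergeC_ok P inv x x.2
    have hx : H.Adj (L.ζ c0F) (L.ζ x) ↔ P x := ⟨fun h => ⟨x.2, h⟩, fun ⟨_, h⟩ => h⟩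
    rw [hx, hiff]
    simp only [List.length_cons, List.length_nil] at hl
    interval_cases hL : lab mergeC x
    · simp [α, getN_eq_getD]
    · simp [β, getN_eq_getD]
    · simp [γ, getN_eq_getD]
    · have : P (getN [0, 28, 389, 1364] 3) → False := fun ⟨h, e⟩ => H.adj_irrefl _ e
      simp only [show Nat.beq 3 0 = false from rfl, show Nat.beq 3 1 = false from rfl,
        show Nat.beq 3 2 = false from rfl, cond_false, Bool.false_and]
      exact iff_of_false this Bool.false_ne_true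
  have h320 := L.toFrame.split_card fun w => H.Adj (L.ζ c0F) w
  rw [H.degree, if_neg (fun h => H.not_both ((H.adj_a' _).1 h) (L.ζ_mem c0F))] at h320
  have e1 : (Finset.univ.filter fun u => H.Adj (L.ζ c0F) (L.ι u)).card = 96 := by
    rw [← trace_card L.toFrame (L.ζ_mem c0F)]
    exact congrArg Finset.card (Finset.filter_congr fun u _ => H.adj_symm _ _)
  have e2 : (Finset.univ.filter fun x => H.Adj (L.ζ c0F) (L.ζ x)).card =
      (Finset.univ.filter fun w => w ∈ H.Oc ∧ H.Adj (L.ζ c0F) w).card := by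
    refine Finset.card_bij (fun c _ => L.ζ c) (fun c hc => ?_) (fun a _ c _ e => L.ζ_inj e) ?_
    · simp only [Finset.mem_filter, Finset.mem_univ, true_and] at hc ⊢
      exact ⟨L.ζ_mem c, hc⟩
    · intro w hw
      simp only [Finset.mem_filter, Finset.mem_univ, true_and] at hw
      obtain ⟨c, rfl⟩ := L.ζ_range hw.1
      exact ⟨c, by simpa using hw.2, rfl⟩
  rw [e1] at h320
  rw [Finset.filter_congr fun x _ => hall x] at e2
  obtain ⟨hα, hβ, hγ⟩ := count_C α β γ (by rw [fin_count]; omega)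
  have hs := allFrom_spec shapeC c (Nat.zero_le _) (by omega)
  simp only [Bool.and_eq_true] at hs
  rw [hall c, hα, hβ, hγ, ← brec_eq hs.1]
  cases h1 : Nat.beq (lab mergeC c) 0 <;> cases h2 : Nat.beq (lab mergeC c) 1 <;> simp
  · rw [Nat.eq_of_beq_eq_true h1] at h2; exact Bool.noConfusion h2

/-- Adjacency among the 1365, described in the model. -/
theorem adj_C (c c' : Fin 1365) :
    H.Adj (L.ζ c) (L.ζ c') ↔ ∀ g : X, rC g c0F = c → tb d320 ((rC g).symm c' : Fin 1365) = true := by
  have key : ∀ g : X, rC g c0F = c → (H.Adj (L.ζ c) (L.ζ c') ↔ tb d320 ((rC g).symm c' : Fin 1365) = true) := by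
    intro g hg
    rw [← L.adj_c0, ← H.adj_act (H.e.symm g) (L.ζ c0F), L.ζ_lift, L.ζ_lift, hg, (rC g).apply_symm_apply]
  constructor
  · exact fun h g hg => (key g hg).1 h
  · intro h
    obtain ⟨g, hg⟩ := transC c
    exact (key g hg).2 (h g hg)

end Labelling

end Hyp

end Cfsg.Agent.H11.Suz
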