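import Cfsg.Agent.H11.Suz.Orbital

/-!
Two labelled groups coincide, so every group of the kind is the Suzuki group.
-/

set_option autoImplicit false

open Equiv Cfsg.Agent.H16 Cfsg.Agent.H36

namespace Cfsg.Agent.H11.Suz

open Data

universe u v

namespace Hyp

open scoped Classical

variable {Ω : Type u} [Fintype Ω] [DecidableEq Ω] {G : Subgroup (Perm Ω)} {a : Ω} {H : Hyp G a}

theorem kind_zero : kind ((0 : Fin 1782) : ℕ) = 0 := by decide +kernel

theorem Apt_ne (i : Fin 416) : Apt i ≠ 0 := fun e => by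
  have := (Apt_facts i).2
  rw [e, kind_zero] at this; omega

theorem Cpt_ne (c : Fin 1365) : Cpt c ≠ 0 := fun e => by
  have := (Cpt_facts c).2
  rw [e, kind_zero] at this; omega

namespace Labelling

variable (L : H.Labelling)

/-- The point with a given label. -/
noncomputable def Φ (x : Fin 1782) : Ω :=
  if x = 0 then a else
    if h : kind x = 1 ∧ idx x < 416 then L.ι ⟨idx x, h.2⟩ else
      if h : idx x < 1365 then L.ζ ⟨idx x, h⟩ else a

theorem Φ_zero : L.Φ 0 = a := if_pos rfl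

theorem Φ_Apt (i : Fin 416) : L.Φ (Apt i) = L.ι i := by
  rw [Φ, if_neg (Apt_ne i), dif_pos ⟨(Apt_facts i).2, by rw [(Apt_facts i).1]; exact i.2⟩]
  congr 1; exact Fin.ext (Apt_facts i).1

theorem Φ_Cpt (c : Fin 1365) : L.Φ (Cpt c) = L.ζ c := by
  rw [Φ, if_neg (Cpt_ne c), dif_neg (fun h => by rw [(Cpt_facts c).2] at h; omega),
    dif_pos (by rw [(Cpt_facts c).1]; exact c.2)]
  congr 1; exact Fin.ext (Cpt_facts c).1

theorem Φ_bij : Function.Bijective L.Φ := by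
  rw [Fintype.bijective_iff_surjective_and_card]
  refine ⟨fun z => ?_, by rw [Fintype.card_fin, H.card]⟩
  rcases H.cover z with rfl | h | h
  · exact ⟨0, L.Φ_zero⟩
  · obtain ⟨j, rfl⟩ := (L.range z).1 h
    exact ⟨_, L.Φ_Apt j⟩
  · obtain ⟨c, rfl⟩ := L.ζ_range h
    exact ⟨_, L.Φ_Cpt c⟩

/-- Adjacency of labels. -/
def R (x y : Fin 1782) : Prop := H.Adj (L.Φ x) (L.Φ y)

theorem R_zero_A (i : Fin 416) : L.R 0 (Apt i) := by
  rw [R, Φ_zero, Φ_Apt]; exact (H.adj_a _).2 (L.mem i)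

theorem R_zero_C (c : Fin 1365) : ¬ L.R 0 (Cpt c) := by
  rw [R, Φ_zero, Φ_Cpt, H.adj_a]; exact fun h => H.not_both h (L.ζ_mem c)

theorem R_AA (i j : Fin 416) : L.R (Apt i) (Apt j) ↔ adjA i j = true := by
  rw [R, Φ_Apt, Φ_Apt, frame_adj L.toFrame]

theorem R_AC (i : Fin 416) (c : Fin 1365) : L.R (Apt i) (Cpt c) ↔ inS c i = true := by
  rw [R, Φ_Apt, Φ_Cpt, L.ζ_trace]

theorem R_symm (x y : Fin 1782) : L.R x y ↔ L.R y x := H.adj_symm _ _

theorem R_irrefl (x : Fin 1782) : ¬ L.R x x := H.adj_irrefl _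

/-- The labels of two graphs agree. -/
theorem R_eq {Ω' : Type v} [Fintype Ω'] [DecidableEq Ω'] {G' : Subgroup (Perm Ω')} {a' : Ω'} {H' : Hyp G' a'}
    (L' : H'.Labelling) (x y : Fin 1782) : L.R x y ↔ L'.R x y := by
  rcases pt_cases x with ⟨rfl, -⟩ | ⟨i, rfl⟩ | ⟨c, rfl⟩ <;>
    rcases pt_cases y with ⟨rfl, -⟩ | ⟨j, rfl⟩ | ⟨d, rfl⟩
  · exact iff_of_false (L.R_irrefl _) (L'.R_irrefl _)
  · exact iff_of_true (L.R_zero_A j) (L'.R_zero_A j)
  · exact iff_of_false (L.R_zero_C d) (L'.R_zero_C d)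
  · rw [L.R_symm, L'.R_symm]; exact iff_of_true (L.R_zero_A i) (L'.R_zero_A i)
  · rw [L.R_AA, L'.R_AA]
  · rw [L.R_AC, L'.R_AC]
  · rw [L.R_symm, L'.R_symm]; exact iff_of_false (L.R_zero_C c) (L'.R_zero_C c)
  · rw [L.R_symm, L'.R_symm, L.R_AC, L'.R_AC]
  · rw [R, R, Φ_Cpt, Φ_Cpt, Φ_Cpt, Φ_Cpt, L.adj_C, L'.adj_C]

/-- The labelling as a bijection. -/
noncomputable def equiv : Fin 1782 ≃ Ω := Equiv.ofBijective L.Φ L.Φ_bij

/-- The group on the labels. -/
noncomputable def hom : G →* Perm (Fin 1782) where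
  toFun g := L.equiv.symm.permCongr (g : Perm Ω)
  map_one' := by ext; simp
  map_mul' g h := by ext; simp

theorem hom_spec (g : G) (x : Fin 1782) : L.Φ (L.hom g x) = (g : Perm Ω) (L.Φ x) := by
  show L.equiv (L.equiv.symm.permCongr (g : Perm Ω) x) = _
  simp [equiv]

theorem hom_inj : Function.Injective L.hom := fun g h e =>
  Subtype.ext (L.equiv.symm.permCongr.injective e)

theorem hom_R {p : Perm (Fin 1782)} (hp : p ∈ L.hom.range) (x y : Fin 1782) : L.R (p x) (p y) ↔ L.R x y := by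
  obtain ⟨g, rfl⟩ := hp
  rw [R, R, L.hom_spec, L.hom_spec, H.adj_map g.2]

theorem stab_eq : L.hom.range ⊓ MulAction.stabilizer (Perm (Fin 1782)) (0 : Fin 1782) = X := by
  have hmap : L.hom.range ⊓ MulAction.stabilizer (Perm (Fin 1782)) (0 : Fin 1782) =
      (MulAction.stabilizer G a).map L.hom := by
    ext p
    constructor
    · rintro ⟨⟨g, rfl⟩, hp⟩
      refine ⟨g, ?_, rfl⟩
      show (g : Perm Ω) a = a
      have h := L.hom_spec g 0
      rw [show L.hom g 0 = 0 from hp, L.Φ_zero] at h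
      exact h.symm
    · rintro ⟨g, hg, rfl⟩
      refine ⟨⟨g, rfl⟩, L.Φ_bij.1 ?_⟩
      show L.Φ (L.hom g 0) = L.Φ 0
      rw [L.hom_spec, L.Φ_zero]; exact hg
  rw [hmap]
  symm
  refine Subgroup.eq_of_le_of_card_ge (fun p hp => ?_) ?_
  · set x := H.e.symm ⟨p, hp⟩
    refine ⟨(x : G), x.2, Equiv.ext fun w => L.Φ_bij.1 ?_⟩
    rw [L.hom_spec]
    rcases pt_cases w with ⟨rfl, -⟩ | ⟨i, rfl⟩ | ⟨c, rfl⟩
    · rw [L.Φ_zero, X_fix hp, L.Φ_zero]; exact act_a x
    · rw [L.Φ_Apt, show p (Apt i) = Apt (rA ⟨p, hp⟩ i) from rA_spec ⟨p, hp⟩ i, L.Φ_Apt]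
      exact L.lift ⟨p, hp⟩ i
    · rw [L.Φ_Cpt, show p (Cpt c) = Cpt (rC ⟨p, hp⟩ c) from rC_spec ⟨p, hp⟩ c, L.Φ_Cpt]
      exact L.ζ_lift ⟨p, hp⟩ c
  · rw [Subgroup.card_map_of_injective L.hom_inj, Nat.card_congr H.e.toEquiv]

theorem range_trans (x : Fin 1782) : ∃ p ∈ L.hom.range, p 0 = x := by
  refine ⟨L.hom ⟨H.t (L.Φ x), H.t_mem _⟩, ⟨_, rfl⟩, L.Φ_bij.1 ?_⟩
  rw [L.hom_spec, L.Φ_zero]; exact H.t_a _

theorem card_range : Nat.card L.hom.range = 1782 * 251596800 := by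
  have horb : MulAction.orbit L.hom.range (0 : Fin 1782) = Set.univ := Set.eq_univ_of_forall fun x => by
    obtain ⟨p, hp, e⟩ := L.range_trans x; exact ⟨⟨p, hp⟩, e⟩
  have h := H14.card_stab_mul L.hom.range (0 : Fin 1782) _ horb
  rw [Set.ncard_univ, Nat.card_fin, L.stab_eq, card_X] at h
  omega

theorem R_zero_iff (x : Fin 1782) : L.R 0 x ↔ ∃ i, x = Apt i := by
  rcases pt_cases x with ⟨rfl, -⟩ | ⟨i, rfl⟩ | ⟨c, rfl⟩
  · exact iff_of_false (L.R_irrefl _) fun ⟨i, e⟩ => Apt_ne i e.symm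
  · exact iff_of_true (L.R_zero_A i) ⟨i, rfl⟩
  · exact iff_of_false (L.R_zero_C c) fun ⟨i, e⟩ => by
      have := (Cpt_facts c).2
      rw [e, (Apt_facts i).2] at this; omega

/-- Automorphisms fixing the first label and agreeing on its neighbours are equal. -/
theorem ext_R {p q : Perm (Fin 1782)} (hp : ∀ x y, L.R (p x) (p y) ↔ L.R x y)
    (hq : ∀ x y, L.R (q x) (q y) ↔ L.R x y) (hp0 : p 0 = 0) (hq0 : q 0 = 0)
    (h : ∀ i, p (Apt i) = q (Apt i)) : p = q := by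
  refine Equiv.ext fun x => ?_
  rcases pt_cases x with ⟨rfl, -⟩ | ⟨i, rfl⟩ | ⟨c, rfl⟩
  · rw [hp0, hq0]
  · exact h i
  · have himg : ∀ r : Perm (Fin 1782), (∀ x y, L.R (r x) (r y) ↔ L.R x y) → r 0 = 0 → ∃ d, r (Cpt c) = Cpt d := by
      intro r hr hr0
      rcases pt_cases (r (Cpt c)) with ⟨e, -⟩ | e | e
      · exact absurd (r.injective (e.trans hr0.symm)) (Cpt_ne c)
      · rw [← L.R_zero_iff, ← hr0, hr] at e
        exact absurd e (L.R_zero_C c)
      · exact e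
    obtain ⟨d, hd⟩ := himg p hp hp0
    obtain ⟨d', hd'⟩ := himg q hq hq0
    rw [hd, hd']
    congr 1
    refine inS_inj fun i => ?_
    obtain ⟨j, hj⟩ : ∃ j, p (Apt j) = Apt i := by
      obtain ⟨y, hy⟩ : ∃ y, p y = Apt i := ⟨_, p.apply_symm_apply _⟩
      have : L.R 0 y := by rw [← hp, hp0, hy]; exact L.R_zero_A i
      obtain ⟨j, rfl⟩ := (L.R_zero_iff y).1 this
      exact ⟨j, hy⟩
    rw [Bool.eq_iff_iff, ← L.R_AC, ← L.R_AC, ← hj, ← hd, hp]
    rw [h j, ← hd', hq]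

/-- An automorphism fixing the first label, on its neighbours. -/
theorem res_exists {s : Perm (Fin 1782)} (hs : ∀ x y, L.R (s x) (s y) ↔ L.R x y) (hs0 : s 0 = 0) :
    ∃ σ : Perm (Fin 416), σ ∈ autOf 416 aTab ∧ ∀ i, s (Apt i) = Apt (σ i) := by
  have h : ∀ i, ∃ j, s (Apt i) = Apt j := fun i => by
    refine (L.R_zero_iff _).1 ?_
    rw [← hs0, hs]; exact L.R_zero_A i
  choose f hf using h
  have hinj : Function.Injective f := fun i j e => Apt_inj (s.injective (by rw [hf, hf, e]))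
  refine ⟨Equiv.ofBijective f (Finite.injective_iff_bijective.1 hinj), fun i j => ?_, fun i => hf i⟩
  show adjA (f i : Fin 416) (f j : Fin 416) = adjA i j
  rw [Bool.eq_iff_iff, ← L.R_AA, ← L.R_AA, ← hf, ← hf, hs]

theorem range_eq {Ω' : Type v} [Fintype Ω'] [DecidableEq Ω'] {G' : Subgroup (Perm Ω')} {a' : Ω'} {H' : Hyp G' a'}
    (L' : H'.Labelling) : L.hom.range = L'.hom.range := by
  set G1 := L.hom.range with hG1
  set G2 := L'.hom.range with hG2
  have hX1 : X ≤ G1 := L.stab_eq.ge.trans inf_le_left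
  have hX2 : X ≤ G2 := L'.stab_eq.ge.trans inf_le_left
  have hR2 : ∀ p ∈ G2, ∀ x y, L.R (p x) (p y) ↔ L.R x y := fun p hp x y => by
    rw [L.R_eq L', L.R_eq L', L'.hom_R hp]
  obtain ⟨p, hp, p0⟩ := L.range_trans (Apt 0)
  obtain ⟨q, hq, q0⟩ := L'.range_trans (Apt 0)
  have hsR : ∀ x y, L.R ((q⁻¹ * p) x) ((q⁻¹ * p) y) ↔ L.R x y := fun x y => by
    rw [Perm.mul_apply, Perm.mul_apply, hR2 _ (G2.inv_mem hq), L.hom_R hp]
  have hs0 : (q⁻¹ * p) 0 = 0 := by
    rw [Perm.mul_apply, p0, Perm.inv_eq_iff_eq, q0]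
  obtain ⟨σ, hσ, hσs⟩ := L.res_exists hsR hs0
  have hconj : ∀ g : X, p * (g : Perm (Fin 1782)) * p⁻¹ ∈ G2 := by
    intro g
    obtain ⟨g', hg'⟩ := normalises hσ g
    have e : q⁻¹ * p * (g : Perm (Fin 1782)) = (g' : Perm (Fin 1782)) * (q⁻¹ * p) := by
      refine L.ext_R (fun x y => ?_) (fun x y => ?_) ?_ ?_ fun i => ?_
      · rw [Perm.mul_apply _ (g : Perm (Fin 1782)), Perm.mul_apply _ (g : Perm (Fin 1782)), hsR, hR2 _ (hX2 g.2)]
      · rw [Perm.mul_apply (g' : Perm (Fin 1782)), Perm.mul_apply (g' : Perm (Fin 1782)), hR2 _ (hX2 g'.2), hsR]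
      · rw [Perm.mul_apply, X_fix g.2, hs0]
      · rw [Perm.mul_apply, hs0, X_fix g'.2]
      · rw [Perm.mul_apply _ (g : Perm (Fin 1782)), Perm.mul_apply (g' : Perm (Fin 1782)), rA_spec, hσs, hσs,
          rA_spec, hg', Perm.mul_apply, Perm.mul_apply]
        simp
    have hmem := G2.mul_mem (G2.mul_mem hq (hX2 g'.2)) (G2.inv_mem hq)
    have e2 : p * (g : Perm (Fin 1782)) * p⁻¹ = q * (g' : Perm (Fin 1782)) * q⁻¹ := by
      calc p * (g : Perm (Fin 1782)) * p⁻¹ = q * (q⁻¹ * p * (g : Perm (Fin 1782))) * p⁻¹ := by group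
        _ = q * ((g' : Perm (Fin 1782)) * (q⁻¹ * p)) * p⁻¹ := by rw [e]
        _ = q * (g' : Perm (Fin 1782)) * q⁻¹ := by group
    rw [e2]; exact hmem
  set K := G1 ⊓ G2 with hK
  have hXK : X ≤ K := le_inf hX1 hX2
  have hKstab : K ⊓ MulAction.stabilizer (Perm (Fin 1782)) (0 : Fin 1782) = X :=
    le_antisymm (fun x hx => L.stab_eq.le ⟨hx.1.1, hx.2⟩) (le_inf hXK fun x hx => X_fix hx)
  set O := MulAction.orbit K (0 : Fin 1782) with hO
  have hcardK := H14.card_stab_mul K (0 : Fin 1782) O rfl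
  rw [hKstab, card_X] at hcardK
  have hdvd : Nat.card K ∣ 1782 * 251596800 := L.card_range ▸ Subgroup.card_dvd_of_le inf_le_left
  rw [← hcardK] at hdvd
  have hd : O.ncard ∣ 1782 := Nat.dvd_of_mul_dvd_mul_right (by norm_num) hdvd
  -- the orbit leaves the first label
  have hA : ∀ i, Apt i ∈ O → ∀ j, Apt j ∈ O := fun i hi j => by
    obtain ⟨g1, h1⟩ := transA i
    obtain ⟨g2, h2⟩ := transA j
    have hg : ((g2 * g1⁻¹ : X) : Perm (Fin 1782)) (Apt i) = Apt j := by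
      rw [rA_spec, map_mul, map_inv, Perm.mul_apply, Perm.inv_eq_iff_eq.2 h1.symm, h2]
    rw [← hg]
    exact MulAction.mem_orbit_of_mem_orbit (⟨_, hXK (g2 * g1⁻¹).2⟩ : K) hi
  have hC : ∀ i, Cpt i ∈ O → ∀ j, Cpt j ∈ O := fun i hi j => by
    obtain ⟨g1, h1⟩ := transC i
    obtain ⟨g2, h2⟩ := transC j
    have hg : ((g2 * g1⁻¹ : X) : Perm (Fin 1782)) (Cpt i) = Cpt j := by
      rw [rC_spec, map_mul, map_inv, Perm.mul_apply, Perm.inv_eq_iff_eq.2 h1.symm, h2]
    rw [← hg]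
    exact MulAction.mem_orbit_of_mem_orbit (⟨_, hXK (g2 * g1⁻¹).2⟩ : K) hi
  have h0O : (0 : Fin 1782) ∈ O := MulAction.mem_orbit_self _
  have hmove : ∃ x ∈ O, x ≠ 0 := by
    obtain ⟨i0, hi0⟩ : ∃ i0, p⁻¹ (0 : Fin 1782) = Apt i0 := by
      refine (L.R_zero_iff _).1 ?_
      have e : p⁻¹ (Apt 0) = 0 := by rw [Perm.inv_eq_iff_eq, p0]
      nth_rewrite 1 [← e]
      rw [L.hom_R (G1.inv_mem hp), L.R_symm]
      exact L.R_zero_A 0
    obtain ⟨g0, h0⟩ := transA i0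
    obtain ⟨j, hj⟩ : ∃ j : Fin 416, j ≠ i0 := exists_ne i0
    obtain ⟨g1, h1⟩ := transA j
    have hmem : p * ((g1 * g0⁻¹ : X) : Perm (Fin 1782)) * p⁻¹ ∈ K :=
      ⟨G1.mul_mem (G1.mul_mem hp (hX1 (g1 * g0⁻¹).2)) (G1.inv_mem hp), hconj _⟩
    refine ⟨_, ⟨⟨_, hmem⟩, rfl⟩, fun e => ?_⟩
    have e' : p (((g1 * g0⁻¹ : X) : Perm (Fin 1782)) (p⁻¹ 0)) = 0 := e
    rw [hi0, rA_spec, map_mul, map_inv, Perm.mul_apply, Perm.inv_eq_iff_eq.2 h0.symm, h1] at e'
    have e3 : Apt j = Apt i0 := by rw [← hi0]; exact (Perm.eq_inv_iff_eq).2 e'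
    exact hj (Apt_inj e3)
  have hO1782 : O.ncard = 1782 := by
    by_cases hAO : ∃ i, Apt i ∈ O <;> by_cases hCO : ∃ c, Cpt c ∈ O
    · have : O = Set.univ := Set.eq_univ_of_forall fun x => by
        rcases pt_cases x with ⟨rfl, -⟩ | ⟨i, rfl⟩ | ⟨c, rfl⟩
        · exact h0O
        · exact hA _ hAO.choose_spec i
        · exact hC _ hCO.choose_spec c
      rw [this, Set.ncard_univ, Nat.card_fin]
    · have : O = insert 0 (Set.range Apt) := by
        ext x
        rcases pt_cases x with ⟨rfl, -⟩ | ⟨i, rfl⟩ | ⟨c, rfl⟩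
        · simp [h0O]
        · simpa using hA _ hAO.choose_spec i
        · refine iff_of_false (fun h => hCO ⟨c, h⟩) ?_
          rintro (h | ⟨i, h⟩)
          · exact Cpt_ne c h
          · have := (Cpt_facts c).2
            rw [← h, (Apt_facts i).2] at this; omega
      rw [this, Set.ncard_insert_of_notMem (show (0 : Fin 1782) ∉ Set.range Apt from fun ⟨i, h⟩ => Apt_ne i h),
        Set.ncard_range_of_injective Apt_inj, Nat.card_fin] at hd
      norm_num at hd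
    · have : O = insert 0 (Set.range Cpt) := by
        ext x
        rcases pt_cases x with ⟨rfl, -⟩ | ⟨i, rfl⟩ | ⟨c, rfl⟩
        · simp [h0O]
        · refine iff_of_false (fun h => hAO ⟨i, h⟩) ?_
          rintro (h | ⟨c, h⟩)
          · exact Apt_ne i h
          · have := (Cpt_facts c).2
            rw [h, (Apt_facts i).2] at this; omega
        · simpa using hC _ hCO.choose_spec c
      rw [this, Set.ncard_insert_of_notMem (show (0 : Fin 1782) ∉ Set.range Cpt from fun ⟨c, h⟩ => Cpt_ne c h),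
        Set.ncard_range_of_injective Cpt_inj, Nat.card_fin] at hd
      norm_num at hd
    · obtain ⟨x, hx, hx0⟩ := hmove
      rcases pt_cases x with ⟨rfl, -⟩ | ⟨i, rfl⟩ | ⟨c, rfl⟩
      · exact absurd rfl hx0
      · exact absurd ⟨i, hx⟩ hAO
      · exact absurd ⟨c, hx⟩ hCO
  rw [hO1782] at hcardK
  have h1 : K = G1 := Subgroup.eq_of_le_of_card_ge inf_le_left (by rw [hG1, L.card_range, hcardK])
  have h2 : K = G2 := Subgroup.eq_of_le_of_card_ge inf_le_right (by rw [hG2, L'.card_range, hcardK])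
  exact h1.symm.trans h2

end Labelling

end Hyp

/-- The model satisfies the hypotheses. -/
theorem model_hyp : Nonempty (Hyp M (0 : Fin 1782)) := by
  have hstab : (MulAction.stabilizer M (0 : Fin 1782)).map M.subtype = X := by
    symm
    refine Subgroup.eq_of_le_of_card_ge (fun g hg => ⟨⟨g, X_le_M hg⟩, X_fix hg, rfl⟩) ?_
    rw [Subgroup.card_map_of_injective M.subtype_injective, card_X]
    have horb : MulAction.orbit M (0 : Fin 1782) = Set.univ := Set.eq_univ_of_forall fun x => by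
      obtain ⟨m, hm, e⟩ := M_trans x; exact ⟨⟨m, hm⟩, e⟩
    have h := H14.card_stab_mul' (G := M) (0 : Fin 1782) _ horb
    rw [Set.ncard_univ, Nat.card_fin, card_M] at h
    omega
  let e : MulAction.stabilizer M (0 : Fin 1782) ≃* X :=
    (Subgroup.equivMapOfInjective _ M.subtype M.subtype_injective).trans (MulEquiv.subgroupCongr hstab)
  have he : ∀ (x : MulAction.stabilizer M (0 : Fin 1782)),
      ((e x : X) : Perm (Fin 1782)) = ((x : M) : Perm (Fin 1782)) := fun _ => rfl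
  have hA : MulAction.orbit (MulAction.stabilizer M (0 : Fin 1782)) (Apt 0) = Set.range Apt := by
    ext y
    constructor
    · rintro ⟨x, rfl⟩
      exact ⟨rA (e x) 0, by rw [← rA_spec]; rfl⟩
    · rintro ⟨i, rfl⟩
      obtain ⟨g, hg⟩ := transA i
      refine ⟨e.symm g, ?_⟩
      show (((e.symm g : MulAction.stabilizer M (0 : Fin 1782)) : M) : Perm (Fin 1782)) (Apt 0) = Apt i
      rw [← he, e.apply_symm_apply, rA_spec, hg]
  have hC : MulAction.orbit (MulAction.stabilizer M (0 : Fin 1782)) (Cpt c0F) = Set.range Cpt := by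
    ext y
    constructor
    · rintro ⟨x, rfl⟩
      exact ⟨rC (e x) c0F, by rw [← rC_spec]; rfl⟩
    · rintro ⟨i, rfl⟩
      obtain ⟨g, hg⟩ := transC i
      refine ⟨e.symm g, ?_⟩
      show (((e.symm g : MulAction.stabilizer M (0 : Fin 1782)) : M) : Perm (Fin 1782)) (Cpt c0F) = Cpt i
      rw [← he, e.apply_symm_apply, rC_spec, hg]
  exact ⟨{ card := Fintype.card_fin _
           trans := M_trans
           e := e
           b := Apt 0
           c := Cpt c0F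
           hb := by rw [hA, Set.ncard_range_of_injective Apt_inj, Nat.card_fin]
           hc := by rw [hC, Set.ncard_range_of_injective Cpt_inj, Nat.card_fin] }⟩

/-- A group satisfying the hypotheses is the Suzuki group. -/
theorem Hyp.iso {Ω : Type u} [Fintype Ω] [DecidableEq Ω] {G : Subgroup (Perm Ω)} {a : Ω} (H : Hyp G a) :
    Spor.IsoSuz G := by
  obtain ⟨H'⟩ := model_hyp
  obtain ⟨L⟩ := Hyp.exists_labelling (H := H)
  obtain ⟨L'⟩ := Hyp.exists_labelling (H := H')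
  obtain ⟨e⟩ := M_iso
  exact ⟨(((MonoidHom.ofInjective L.hom_inj).trans (MulEquiv.subgroupCongr (L.range_eq L'))).trans
    (MonoidHom.ofInjective L'.hom_inj).symm).trans e⟩

end Cfsg.Agent.H11.Suz
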